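import Mathlib

/-!
# Piece statements for S4274 (a group of order 175560 = 2³·3·5·7·11·19 is simple or has a normal
Sylow 19-subgroup)

All piece statements are `Prop`-valued definitions; a piece is landed as
`theorem main : <hypothesis pieces> → J1Stmt.X.{u}`.
-/

set_option autoImplicit false

namespace Cfsg.Agent.Lib.Helper69.J1Stmt

universe u

/-- there is no finite simple group of order `n` -/
def NoSimple (n : ℕ) : Prop :=
  ∀ (G : Type u) [Group G] [Finite G] [IsSimpleGroup G], Nat.card G ≠ n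

/-- [CNT] counting the elements of order divisible by `p` when the Sylow `p`-subgroups have
order `p`: there are at least `n_p * |C(Q)| * (p - 1) / p` of them. -/
def Cnt : Prop :=
  ∀ (G : Type u) [Group G] [Finite G] (p : ℕ) [Fact p.Prime] (Q : Sylow p G),
    Nat.card (Q : Subgroup G) = p →
    (p - 1) * Nat.card G * Nat.card (Subgroup.centralizer ((Q : Subgroup G) : Set G)) ≤
      p * Nat.card (Subgroup.normalizer ((Q : Subgroup G) : Set G)) *
        Nat.card {g : G // p ∣ orderOf g}

/-- [SUM] the sets of elements of order divisible by `p`, for primes `p` in a finite set `S`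
such that no element has order divisible by two of them, do not exhaust the group. -/
def Sum : Prop :=
  ∀ (G : Type u) [Group G] [Finite G] (S : Finset ℕ), (∀ p ∈ S, p.Prime) →
    (∀ p ∈ S, ∀ q ∈ S, p ≠ q → ∀ g : G, ¬ (p ∣ orderOf g ∧ q ∣ orderOf g)) →
    ∑ p ∈ S, Nat.card {g : G // p ∣ orderOf g} + 1 ≤ Nat.card G

/-- the six orders not covered by the generic sieve -/
def O2280 : Prop := NoSimple.{u} 2280
def O7980 : Prop := Cnt.{u} → Sum.{u} → NoSimple.{u} 7980
def O15960 : Prop := NoSimple.{u} 15960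
def O35112 : Prop := NoSimple.{u} 35112
def O58520 : Prop := Cnt.{u} → Sum.{u} → NoSimple.{u} 58520
def O87780 : Prop := Cnt.{u} → Sum.{u} → NoSimple.{u} 87780

/-- [SIEVE] the orders `19 m`, `m ∣ 9240`, killed by the generic sieve -/
def Sieve : Prop :=
  ∀ m : ℕ, m ∣ 9240 → m ≠ 1 → m ≠ 9240 → m ≠ 120 → m ≠ 420 → m ≠ 840 → m ≠ 1848 → m ≠ 3080 →
    m ≠ 4620 → NoSimple.{u} (19 * m)

/-- no simple group of order `19 m` for `m ∣ 9240`, `m ≠ 1, 9240` -/
def NS : Prop := ∀ m : ℕ, m ∣ 9240 → m ≠ 1 → m ≠ 9240 → NoSimple.{u} (19 * m)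

/-- [CENT] an element of order 19 centralizes every normal subgroup of order dividing 9240 -/
def Cent : Prop :=
  ∀ (G : Type u) [Group G] [Finite G] (N : Subgroup G), N.Normal → Nat.card N ∣ 9240 →
    ∀ x : G, orderOf x = 19 → ∀ n ∈ N, x * n = n * x

/-- the Sylow 19-subgroups of the groups of order `19 m` are normal -/
def Claim (m : ℕ) : Prop :=
  ∀ (H : Type u) [Group H] [Finite H], Nat.card H = 19 * m →
    ∀ P : Sylow 19 H, (P : Subgroup H).Normal

/-- [STEP] the inductive step -/
def Step : Prop :=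
  Cent.{u} → ∀ m : ℕ, m ∣ 9240 → (∀ m' : ℕ, m' ∣ m → m' < m → Claim.{u} m') →
    ∀ (H : Type u) [Group H] [Finite H], Nat.card H = 19 * m →
      IsSimpleGroup H ∨ ∀ P : Sylow 19 H, (P : Subgroup H).Normal

end Cfsg.Agent.Lib.Helper69.J1Stmt
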