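import Mathlib
import Cfsg.Agent.Lib.Helper52.SpStmt

set_option autoImplicit false

/-! Pieces [RQB] and [R2B] of S5171: the two radical subgroups `RQ`, `R2` are normal subgroups of
the Sylow subgroup `PU` of `PSp`. -/

namespace Cfsg.Agent.Lib.Helper69.SpRQB

open Matrix Cfsg.Agent.Lib.Helper43.SpBasic Cfsg.Agent.Lib.Helper43.SpSylow
open Cfsg.Agent.Lib.Helper43.PSLnUT (IsUT isUT_one)
open Cfsg.Agent.Lib.Helper52.SpStmt

universe u

section Mat

variable {m : ℕ} {F : Type*} [Field F] [Finite F]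

theorem mk_congr {a s a' s' : Matrix (Fin m) (Fin m) F} (ha : IsUT a) (hs : s.IsSymm)
    (ha' : IsUT a') (hs' : s'.IsSymm) (h1 : a = a') (h2 : s = s') :
    mk a s ha hs = mk a' s' ha' hs' := by
  subst h1
  subst h2
  rfl

theorem mk_inj {a s a' s' : Matrix (Fin m) (Fin m) F} (ha : IsUT a) (hs : s.IsSymm)
    (ha' : IsUT a') (hs' : s'.IsSymm) (h : mk a s ha hs = mk a' s' ha' hs') :
    a = a' ∧ s = s' := by
  have h1 : (⟨mk a s ha hs, mk_mem _ _ _ _⟩ :
      ↥(U : Subgroup (Matrix.symplecticGroup (Fin m) F))) =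
      ⟨mk a' s' ha' hs', mk_mem _ _ _ _⟩ := Subtype.ext h
  have h2 := congrArg equivU h1
  have e1 : equivU (⟨mk a s ha hs, mk_mem _ _ _ _⟩ :
      ↥(U : Subgroup (Matrix.symplecticGroup (Fin m) F))) = (⟨a, ha⟩, ⟨s, hs⟩) :=
    equivU.right_inv (⟨a, ha⟩, ⟨s, hs⟩)
  have e2 : equivU (⟨mk a' s' ha' hs', mk_mem _ _ _ _⟩ :
      ↥(U : Subgroup (Matrix.symplecticGroup (Fin m) F))) = (⟨a', ha'⟩, ⟨s', hs'⟩) :=
    equivU.right_inv (⟨a', ha'⟩, ⟨s', hs'⟩)
  rw [e1, e2] at h2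
  exact ⟨congrArg (fun x => x.1.1) h2, congrArg (fun x => x.2.1) h2⟩

omit [Finite F] in
theorem isSymm_congr {b s : Matrix (Fin m) (Fin m) F} (hs : s.IsSymm) : (b * s * bᵀ).IsSymm := by
  unfold Matrix.IsSymm
  rw [Matrix.transpose_mul, Matrix.transpose_mul, Matrix.transpose_transpose, hs.eq,
    Matrix.mul_assoc]

/-- conjugating `mk 1 s` by `mk b t` -/
theorem conj_mk_one (b t s : Matrix (Fin m) (Fin m) F) (hb : IsUT b) (ht : t.IsSymm)
    (hs : s.IsSymm) :
    mk b t hb ht * mk 1 s isUT_one hs * (mk b t hb ht)⁻¹ =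
      mk 1 (b * s * bᵀ) isUT_one (isSymm_congr hs) := by
  rw [mul_inv_eq_iff_eq_mul]
  have h1 : IsUT (b * 1) := by rw [Matrix.mul_one]; exact hb
  have h2 : (t + b * s * bᵀ).IsSymm := ht.add (isSymm_congr hs)
  have h3 : IsUT ((1 : Matrix (Fin m) (Fin m) F) * b) := by rw [Matrix.one_mul]; exact hb
  have h4 : (b * s * bᵀ + 1 * t * (1 : Matrix (Fin m) (Fin m) F)ᵀ).IsSymm := by
    rw [Matrix.one_mul, Matrix.transpose_one, Matrix.mul_one]
    exact (isSymm_congr hs).add ht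
  rw [mk_mul b t 1 s hb ht isUT_one hs h1 h2,
    mk_mul 1 (b * s * bᵀ) b t isUT_one (isSymm_congr hs) hb ht h3 h4]
  apply mk_congr
  · rw [Matrix.mul_one, Matrix.one_mul]
  · rw [Matrix.one_mul, Matrix.transpose_one, Matrix.mul_one, add_comm]

theorem QS_le_U : QS m F ≤ U := by
  rw [QS, Subgroup.closure_le]
  rintro x ⟨s, hs, rfl⟩
  exact mk_mem _ _ _ _

theorem conj_mem_QS {u x : Matrix.symplecticGroup (Fin m) F} (hu : u ∈ U) (hx : x ∈ QS m F) :
    u * x * u⁻¹ ∈ QS m F := by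
  obtain ⟨b, t, hb, ht, rfl⟩ := exists_mk hu
  induction hx using Subgroup.closure_induction with
  | mem x hx =>
    obtain ⟨s, hs, rfl⟩ := hx
    rw [conj_mk_one b t s hb ht hs]
    exact Subgroup.subset_closure ⟨_, isSymm_congr hs, rfl⟩
  | one =>
    rw [mul_one, mul_inv_cancel]
    exact one_mem _
  | mul x y _ _ hx hy =>
    have e : mk b t hb ht * (x * y) * (mk b t hb ht)⁻¹ =
        (mk b t hb ht * x * (mk b t hb ht)⁻¹) * (mk b t hb ht * y * (mk b t hb ht)⁻¹) := by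
      group
    rw [e]
    exact mul_mem hx hy
  | inv x _ hx =>
    have e : mk b t hb ht * x⁻¹ * (mk b t hb ht)⁻¹ =
        (mk b t hb ht * x * (mk b t hb ht)⁻¹)⁻¹ := by
      group
    rw [e]
    exact inv_mem hx

omit [Finite F] in
/-- the last diagonal entry is unchanged by a unitriangular congruence -/
theorem last_congr {c M : Matrix (Fin m) (Fin m) F} (hc : IsUT c) (l : Fin m)
    (hl : (l : ℕ) + 1 = m) : (c * M * cᵀ) l l = M l l := by
  have hrow : ∀ i : Fin m, c l i = if i = l then 1 else 0 := by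
    intro i
    by_cases hi : i = l
    · rw [if_pos hi, hi]
      exact hc.2 l
    · rw [if_neg hi]
      apply hc.1
      have h1 : (i : ℕ) < m := i.2
      have h2 : (i : ℕ) ≠ (l : ℕ) := fun h => hi (Fin.ext h)
      exact Fin.lt_def.mpr (by omega)
  rw [Matrix.mul_apply]
  simp only [Matrix.transpose_apply, Matrix.mul_apply, hrow]
  simp

theorem R2S_le_U : R2S m F ≤ U := by
  rw [R2S, Subgroup.closure_le]
  rintro x ⟨a, s, ha, hs, -, rfl⟩
  exact mk_mem _ _ _ _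

theorem conj_mem_R2S {u x : Matrix.symplecticGroup (Fin m) F} (hu : u ∈ U) (hx : x ∈ R2S m F) :
    u * x * u⁻¹ ∈ R2S m F := by
  obtain ⟨b, t, hb, ht, rfl⟩ := exists_mk hu
  induction hx using Subgroup.closure_induction with
  | mem x hx =>
    obtain ⟨a, s, ha, hs, hz, rfl⟩ := hx
    have hmem : mk b t hb ht * mk a s ha hs * (mk b t hb ht)⁻¹ ∈
        (U : Subgroup (Matrix.symplecticGroup (Fin m) F)) :=
      mul_mem (mul_mem (mk_mem _ _ _ _) (mk_mem _ _ _ _)) (inv_mem (mk_mem _ _ _ _))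
    obtain ⟨a', s', ha', hs', he⟩ := exists_mk hmem
    rw [he]
    refine Subgroup.subset_closure ⟨a', s', ha', hs', ?_, rfl⟩
    intro l hl
    rw [mul_inv_eq_iff_eq_mul] at he
    have h1 : IsUT (b * a) := hb.mul ha
    have h2 : (t + b * s * bᵀ).IsSymm := ht.add (isSymm_congr hs)
    have h3 : IsUT (a' * b) := ha'.mul hb
    have h4 : (s' + a' * t * a'ᵀ).IsSymm := hs'.add (isSymm_congr ht)
    rw [mk_mul b t a s hb ht ha hs h1 h2, mk_mul a' s' b t ha' hs' hb ht h3 h4] at he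
    have h5 := (mk_inj h1 h2 h3 h4 he).2
    have h6 := congrFun (congrFun h5 l) l
    rw [Matrix.add_apply, Matrix.add_apply, last_congr hb l hl, last_congr ha' l hl, hz l hl] at h6
    linear_combination -h6
  | one =>
    rw [mul_one, mul_inv_cancel]
    exact one_mem _
  | mul x y _ _ hx hy =>
    have e : mk b t hb ht * (x * y) * (mk b t hb ht)⁻¹ =
        (mk b t hb ht * x * (mk b t hb ht)⁻¹) * (mk b t hb ht * y * (mk b t hb ht)⁻¹) := by
      group
    rw [e]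
    exact mul_mem hx hy
  | inv x _ hx =>
    have e : mk b t hb ht * x⁻¹ * (mk b t hb ht)⁻¹ =
        (mk b t hb ht * x * (mk b t hb ht)⁻¹)⁻¹ := by
      group
    rw [e]
    exact inv_mem hx

end Mat

theorem main : RQBasic.{u} := by
  intro m F _ _
  constructor
  · exact Subgroup.map_mono QS_le_U
  · rintro s ⟨u, hu, rfl⟩ r ⟨x, hx, rfl⟩
    refine ⟨u * x * u⁻¹, conj_mem_QS hu hx, ?_⟩
    rw [map_mul, map_mul, map_inv]

end Cfsg.Agent.Lib.Helper69.SpRQB
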