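import Mathlib
import Cfsg.Prelude.Def_Blocks
import Cfsg.Agent.Lib.CT.Wedderburn

set_option autoImplicit false

/-! Piece [K1] of S4503 (helper74's split): two distinct irreducible characters agreeing on the
`p`-regular elements, tested against a function constant on the `p`-singular elements. -/

namespace Cfsg.Agent.Lib.Helper69.BrK1

open Cfsg
open scoped ComplexConjugate

universe u
variable {G : Type u} [Group G]

/-- [K1] -/
theorem inner_diff_const [Fintype G] (p : ℕ) (χa χb : IrrCharacter G) (hne : χa ≠ χb)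
    (hreg : ∀ g : G, ¬ p ∣ orderOf g → (χb : G → ℂ) g = (χa : G → ℂ) g)
    (ω : G → ℂ) (c : ℂ) (hω : ∀ g : G, p ∣ orderOf g → ω g = c) :
    classInner (fun g => (χa : G → ℂ) g * conj ((χa : G → ℂ) g)) ω -
      classInner (fun g => (χa : G → ℂ) g * conj ((χb : G → ℂ) g)) ω = conj c := by
  have h1 := Cfsg.Agent.Lib.CT.Wedderburn.irr_orthonormal χa χa
  have h2 := Cfsg.Agent.Lib.CT.Wedderburn.irr_orthonormal χa χb
  rw [if_pos rfl] at h1
  rw [if_neg hne] at h2
  unfold classInner at *
  have key : ∀ g : G, (χa : G → ℂ) g * conj ((χa : G → ℂ) g) * conj (ω g) -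
      (χa : G → ℂ) g * conj ((χb : G → ℂ) g) * conj (ω g) =
      conj c * ((χa : G → ℂ) g * conj ((χa : G → ℂ) g) -
        (χa : G → ℂ) g * conj ((χb : G → ℂ) g)) := by
    intro g
    by_cases hg : p ∣ orderOf g
    · rw [hω g hg]
      ring
    · rw [hreg g hg]
      ring
  rw [← mul_sub, ← Finset.sum_sub_distrib, Finset.sum_congr rfl (fun g _ => key g),
    ← Finset.mul_sum, Finset.sum_sub_distrib]
  linear_combination (conj c) * h1 - (conj c) * h2

end Cfsg.Agent.Lib.Helper69.BrK1
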