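import Mathlib
import Cfsg.Prelude.Def_Blocks
import Cfsg.Agent.Lib.CT.Orth
import Cfsg.Agent.Lib.CT.Clifford
import Cfsg.Agent.Lib.CT.Ops

set_option autoImplicit false
set_option linter.style.haveILetI false

/-! Piece [K2] of S4503 (helper74's split): monotonicity of the multiplicity of a character of a
subgroup in the restriction of a character. -/

namespace Cfsg.Agent.Lib.Helper69.BrK2

open Cfsg
open scoped ComplexConjugate
open Cfsg.Agent.Lib.CT.Orth Cfsg.Agent.Lib.CT.Wedderburn Cfsg.Agent.Lib.CT.Clifford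
  Cfsg.Agent.Lib.CT.Ops

universe u
variable {G : Type u} [Group G]

/-- [K2] -/
theorem mono [Fintype G] (H : Subgroup G) [Fintype ↥H] (Φ : G → ℂ) (hΦ : IsCharacter G Φ)
    (β : ↥H → ℂ) (hβ : IsCharacter ↥H β) (S : Finset (IrrCharacter G)) :
    ∑ ξ ∈ S, (classInner Φ (ξ : G → ℂ)).re *
        (classInner (fun h : ↥H => (ξ : G → ℂ) (h : G)) β).re ≤
      (classInner (fun h : ↥H => Φ (h : G)) β).re := by
  classical
  have : Finite (IrrCharacter G) := finite_irrCharacter G
  haveI : Fintype (IrrCharacter G) := Fintype.ofFinite _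
  have hm : ∀ χ : IrrCharacter G, ∃ m : ℕ, classInner Φ (χ : G → ℂ) = m :=
    fun χ => classInner_char_nat hΦ (isCharacter_of_irr χ.2)
  have hn : ∀ χ : IrrCharacter G, ∃ n : ℕ,
      classInner (fun h : ↥H => (χ : G → ℂ) (h : G)) β = n :=
    fun χ => classInner_char_nat (isCharacter_restrict H (isCharacter_of_irr χ.2)) hβ
  choose m hm using hm
  choose n hn using hn
  have hexp : classInner (fun h : ↥H => Φ (h : G)) β =
      ∑ χ : IrrCharacter G, (m χ : ℂ) * (n χ : ℂ) := by
    have h1 : ∀ h : ↥H, Φ (h : G) = ∑ χ : IrrCharacter G, (m χ : ℂ) * (χ : G → ℂ) (h : G) := by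
      intro h
      rw [classFunction_expand_sum Φ (char_isClassFunction hΦ) (h : G)]
      exact Finset.sum_congr rfl (fun χ _ => by rw [hm χ])
    have h2 : ∀ χ : IrrCharacter G, (n χ : ℂ) =
        (Nat.card ↥H : ℂ)⁻¹ * ∑ h : ↥H, (χ : G → ℂ) (h : G) * conj (β h) := by
      intro χ
      rw [← hn χ]
      rfl
    unfold classInner
    simp_rw [h1, Finset.sum_mul]
    rw [Finset.sum_comm, Finset.mul_sum]
    refine Finset.sum_congr rfl (fun χ _ => ?_)
    rw [h2 χ, Finset.mul_sum, Finset.mul_sum, Finset.mul_sum]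
    refine Finset.sum_congr rfl (fun h _ => ?_)
    ring
  rw [hexp]
  have hre : (∑ χ : IrrCharacter G, (m χ : ℂ) * (n χ : ℂ)).re =
      ∑ χ : IrrCharacter G, (m χ : ℝ) * (n χ : ℝ) := by
    rw [Complex.re_sum]
    refine Finset.sum_congr rfl (fun χ _ => ?_)
    rw [← Nat.cast_mul, Complex.natCast_re, Nat.cast_mul]
  rw [hre]
  calc ∑ ξ ∈ S, (classInner Φ (ξ : G → ℂ)).re *
        (classInner (fun h : ↥H => (ξ : G → ℂ) (h : G)) β).re
      = ∑ ξ ∈ S, (m ξ : ℝ) * (n ξ : ℝ) :=
        Finset.sum_congr rfl (fun ξ _ => by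
          rw [hm ξ, hn ξ, Complex.natCast_re, Complex.natCast_re])
    _ ≤ ∑ χ : IrrCharacter G, (m χ : ℝ) * (n χ : ℝ) :=
        Finset.sum_le_sum_of_subset_of_nonneg (Finset.subset_univ S)
          (fun χ _ _ => by positivity)

end Cfsg.Agent.Lib.Helper69.BrK2
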