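import Mathlib
import Cfsg.Agent.Lib.Helper69.J1Stmt
import Cfsg.Agent.Lib.Helper17.Sylow

/-! Assembly of S4274 from its pieces. -/

set_option autoImplicit false

namespace Cfsg.Agent.Lib.Helper69.J1Asm

open Cfsg.Agent.Lib.Helper69.J1Stmt

universe u

/-- `NS` from the sieve and the six ad hoc orders -/
theorem ns (hS : Sieve.{u}) (h1 : NoSimple.{u} 2280) (h2 : NoSimple.{u} 7980)
    (h3 : NoSimple.{u} 15960) (h4 : NoSimple.{u} 35112) (h5 : NoSimple.{u} 58520)
    (h6 : NoSimple.{u} 87780) : NS.{u} := by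
  intro m hm hm1 hm2
  by_cases e1 : m = 120
  · subst e1; exact h1
  by_cases e2 : m = 420
  · subst e2; exact h2
  by_cases e3 : m = 840
  · subst e3; exact h3
  by_cases e4 : m = 1848
  · subst e4; exact h4
  by_cases e5 : m = 3080
  · subst e5; exact h5
  by_cases e6 : m = 4620
  · subst e6; exact h6
  exact hS m hm hm1 hm2 e1 e2 e3 e4 e5 e6

/-- a Sylow 19-subgroup of a group of order 19 is normal -/
theorem claim_one : Claim.{u} 1 := by
  intro H _ _ hH P
  have : Fact (Nat.Prime 19) := ⟨by norm_num⟩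
  have hP : Nat.card (P : Subgroup H) = 19 := by
    have h1 := Cfsg.Agent.Lib.Helper17.Sylow.card_sylow_subgroup (p := 19) (k := 1) (m := 1)
      (hH.trans (by norm_num)) (by norm_num) P
    rw [h1]
    norm_num
  have htop : (P : Subgroup H) = ⊤ := by
    apply Subgroup.eq_top_of_card_eq
    rw [hP, hH]
  rw [htop]
  infer_instance

/-- all the claims below 9240 -/
theorem claims (hNS : NS.{u}) (hC : Cent.{u}) (hStep : Step.{u}) :
    ∀ m : ℕ, m ∣ 9240 → m ≠ 9240 → Claim.{u} m := by
  intro m
  induction m using Nat.strong_induction_on with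
  | _ m ih =>
    intro hm hm2 H _ _ hH P
    by_cases hm1 : m = 1
    · subst hm1
      exact claim_one H hH P
    · rcases hStep hC m hm (fun m' hm' hlt => ih m' hlt (dvd_trans hm' hm)
          (fun h => by
            have := Nat.le_of_dvd (by norm_num) hm
            omega)) H hH with hs | hn
      · exact absurd hH (hNS m hm hm1 hm2 H)
      · exact hn P

theorem s4274 (hNS : NS.{u}) (hC : Cent.{u}) (hStep : Step.{u})
    {G : Type u} [Group G] [Finite G] (hG : Nat.card G = 175560) :
    IsSimpleGroup G ∨ ∀ P : Sylow 19 G, (P : Subgroup G).Normal :=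
  hStep hC 9240 dvd_rfl
    (fun m' hm' hlt => claims hNS hC hStep m' hm' (by omega)) G (hG.trans (by norm_num))

end Cfsg.Agent.Lib.Helper69.J1Asm
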