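import Mathlib
import Cfsg.Agent.Lib.Helper69.J1Stmt

/-! Piece [CNT] of S4274: counting the elements of order divisible by `p` when the Sylow
`p`-subgroups have order `p`. -/

set_option autoImplicit false
set_option linter.style.haveILetI false

namespace Cfsg.Agent.Lib.Helper69.J1CNT

open Subgroup Cfsg.Agent.Lib.Helper69.J1Stmt

universe u

variable {G : Type u} [Group G] [Finite G]

/-- a Sylow subgroup of prime order is central in its centralizer -/
theorem le_centralizer_self {p : ℕ} [Fact p.Prime] (Q : Sylow p G)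
    (hQ : Nat.card (Q : Subgroup G) = p) :
    (Q : Subgroup G) ≤ centralizer ((Q : Subgroup G) : Set G) := by
  have hcyc : IsCyclic ↥(Q : Subgroup G) := isCyclic_of_prime_card hQ
  intro x hx
  rw [mem_centralizer_iff]
  intro y hy
  haveI := hcyc.isMulCommutative
  have h := (IsMulCommutative.is_comm (M := ↥(Q : Subgroup G))).comm
    (⟨x, hx⟩ : ↥(Q : Subgroup G)) ⟨y, hy⟩
  exact (congrArg Subtype.val h).symm

/-- two elements of order prime to `p` of `C(Q)` in the same coset of `Q` are equal -/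
theorem eq_of_coset {p : ℕ} [Fact p.Prime] (Q : Sylow p G)
    (hQ : Nat.card (Q : Subgroup G) = p) {g g' : G}
    (hg : g ∈ centralizer ((Q : Subgroup G) : Set G)) (h1 : ¬ p ∣ orderOf g)
    (h2 : ¬ p ∣ orderOf g') (hx : g⁻¹ * g' ∈ (Q : Subgroup G)) : g = g' := by
  have hp : p.Prime := Fact.out
  obtain ⟨x, hxx⟩ : ∃ x, x = g⁻¹ * g' := ⟨_, rfl⟩
  rw [← hxx] at hx
  have hg' : g' = g * x := by rw [hxx]; group
  have hcomm : Commute g x := by
    rw [mem_centralizer_iff] at hg
    exact (hg x hx).symm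
  have hpow : x ^ (orderOf g * orderOf g') = 1 := by
    have e1 : (g * x) ^ (orderOf g * orderOf g') = 1 := by
      rw [← hg', mul_comm, pow_mul, pow_orderOf_eq_one, one_pow]
    rw [hcomm.mul_pow, pow_mul, pow_orderOf_eq_one, one_pow, one_mul] at e1
    exact e1
  have hd1 : orderOf x ∣ orderOf g * orderOf g' := orderOf_dvd_of_pow_eq_one hpow
  have hd2 : orderOf x ∣ p := by
    have := orderOf_dvd_natCard (⟨x, hx⟩ : ↥(Q : Subgroup G))
    rw [hQ] at this
    rwa [Subgroup.orderOf_mk] at this
  have hx1 : orderOf x = 1 := by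
    rcases (Nat.dvd_prime hp).mp hd2 with h | h
    · exact h
    · rw [h] at hd1
      rcases (Nat.Prime.dvd_mul hp).mp hd1 with h3 | h3
      · exact absurd h3 h1
      · exact absurd h3 h2
  rw [orderOf_eq_one_iff] at hx1
  rw [hg', hx1, mul_one]

/-- in `C(Q)` at least the fraction `(p - 1) / p` of the elements has order divisible by `p` -/
theorem step1 {p : ℕ} [Fact p.Prime] (Q : Sylow p G) (hQ : Nat.card (Q : Subgroup G) = p) :
    (p - 1) * Nat.card (centralizer ((Q : Subgroup G) : Set G)) ≤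
      p * Nat.card {c : ↥(centralizer ((Q : Subgroup G) : Set G)) // p ∣ orderOf (c : G)} := by
  classical
  have hp : p.Prime := Fact.out
  haveI : Fintype ↥(centralizer ((Q : Subgroup G) : Set G)) := Fintype.ofFinite _
  obtain ⟨C, hC⟩ : ∃ C : Subgroup G, C = centralizer ((Q : Subgroup G) : Set G) := ⟨_, rfl⟩
  rw [← hC]
  haveI : Fintype ↥C := Fintype.ofFinite _
  have hle : (Q : Subgroup G) ≤ C := hC ▸ le_centralizer_self Q hQ
  -- the injection of the elements of order prime to `p` into the cosets of `Q`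
  have hinj : Function.Injective
      (fun c : {c : ↥C // ¬ p ∣ orderOf (c : G)} =>
        (QuotientGroup.mk (c : ↥C) : ↥C ⧸ ((Q : Subgroup G).subgroupOf C))) := by
    intro c c' h
    have h' := QuotientGroup.eq.mp h
    rw [mem_subgroupOf] at h'
    have e := eq_of_coset Q hQ (hC ▸ (c : ↥C).2) c.2 c'.2 h'
    exact Subtype.ext (Subtype.ext e)
  have h1 : Nat.card {c : ↥C // ¬ p ∣ orderOf (c : G)} ≤
      Nat.card (↥C ⧸ ((Q : Subgroup G).subgroupOf C)) := Nat.card_le_card_of_injective _ hinj
  have h2 : Nat.card ↥C = Nat.card (↥C ⧸ ((Q : Subgroup G).subgroupOf C)) * p := by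
    rw [Subgroup.card_eq_card_quotient_mul_card_subgroup ((Q : Subgroup G).subgroupOf C)]
    congr 1
    rw [Nat.card_congr (Subgroup.subgroupOfEquivOfLe hle).toEquiv, hQ]
  have h3 : Nat.card {c : ↥C // ¬ p ∣ orderOf (c : G)} +
      Nat.card {c : ↥C // p ∣ orderOf (c : G)} = Nat.card ↥C := by
    rw [Nat.card_eq_fintype_card, Nat.card_eq_fintype_card, Nat.card_eq_fintype_card,
      Fintype.card_subtype_compl]
    have := Fintype.card_subtype_le (fun c : ↥C => p ∣ orderOf (c : G))
    omega
  obtain ⟨a, ha⟩ : ∃ a, a = Nat.card {c : ↥C // ¬ p ∣ orderOf (c : G)} := ⟨_, rfl⟩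
  obtain ⟨b, hb⟩ : ∃ b, b = Nat.card {c : ↥C // p ∣ orderOf (c : G)} := ⟨_, rfl⟩
  obtain ⟨q, hq⟩ : ∃ q, q = Nat.card (↥C ⧸ ((Q : Subgroup G).subgroupOf C)) := ⟨_, rfl⟩
  rw [← ha, ← hq] at h1
  rw [← hq] at h2
  rw [← ha, ← hb, h2] at h3
  rw [← hb, h2]
  have hp1 : 1 ≤ p := hp.one_lt.le
  obtain ⟨k, rfl⟩ : ∃ k, p = k + 1 := ⟨p - 1, by omega⟩
  simp only [Nat.add_sub_cancel]
  nlinarith

/-- an element of order divisible by `p` centralizes at most one Sylow `p`-subgroup -/
theorem sylow_unique {p : ℕ} [Fact p.Prime] (Q Q' : Sylow p G)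
    (hQ : Nat.card (Q : Subgroup G) = p) (hQ' : Nat.card (Q' : Subgroup G) = p) {g : G}
    (hg : g ∈ centralizer ((Q : Subgroup G) : Set G))
    (hg' : g ∈ centralizer ((Q' : Subgroup G) : Set G)) (hpg : p ∣ orderOf g) : Q = Q' := by
  have hp : p.Prime := Fact.out
  obtain ⟨x, hx⟩ : ∃ x, x = g ^ (orderOf g / p) := ⟨_, rfl⟩
  have hox : orderOf x = p := by
    rw [hx]
    exact orderOf_pow_orderOf_div (orderOf_pos g).ne' hpg
  have hZ : IsPGroup p ↥(zpowers x) := by
    apply IsPGroup.of_card (n := 1)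
    rw [Nat.card_zpowers, hox, pow_one]
  have key : ∀ R : Sylow p G, Nat.card (R : Subgroup G) = p →
      g ∈ centralizer ((R : Subgroup G) : Set G) → (R : Subgroup G) = zpowers x := by
    intro R hR hgR
    have hxR : x ∈ centralizer ((R : Subgroup G) : Set G) := by
      rw [hx]
      exact pow_mem hgR _
    have hle : zpowers x ≤ normalizer ((R : Subgroup G) : Set G) := by
      rw [zpowers_le]
      exact Subgroup.centralizer_le_normalizer _ hxR
    have hle2 : zpowers x ≤ (R : Subgroup G) :=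
      (hZ.sylow_mem_fixedPoints_iff).mp ((Subgroup.sylow_mem_fixedPoints_iff _).mpr hle)
    symm
    apply Subgroup.eq_of_le_of_card_ge hle2
    rw [Nat.card_zpowers, hox, hR]
  apply Sylow.ext
  rw [key Q hQ hg, key Q' hQ' hg']

/-- conjugate Sylow subgroups have centralizers of the same order -/
theorem card_centralizer_eq {p : ℕ} [Fact p.Prime] (Q Q' : Sylow p G) :
    Nat.card (centralizer ((Q' : Subgroup G) : Set G)) =
      Nat.card (centralizer ((Q : Subgroup G) : Set G)) := by
  obtain ⟨g, rfl⟩ := MulAction.exists_smul_eq G Q Q'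
  symm
  refine Nat.card_congr (Equiv.subtypeEquiv (MulAut.conj g).toEquiv (fun c => ?_))
  simp only [MulEquiv.toEquiv_eq_coe, MulEquiv.coe_toEquiv, MulAut.conj_apply]
  constructor
  · intro hc
    rw [mem_centralizer_iff] at hc ⊢
    intro y hy
    rw [SetLike.mem_coe, Sylow.coe_subgroup_smul, Subgroup.mem_pointwise_smul_iff_inv_smul_mem] at hy
    have h := hc _ hy
    simp only [MulAut.smul_def, map_inv, MulAut.conj_inv_apply] at h
    have e : y * (g * c * g⁻¹) = g * ((g⁻¹ * y * g) * c) * g⁻¹ := by group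
    rw [e, h]
    group
  · intro hc
    rw [mem_centralizer_iff] at hc ⊢
    intro y hy
    have hy' : g * y * g⁻¹ ∈ ((g • Q : Sylow p G) : Subgroup G) := by
      rw [Sylow.coe_subgroup_smul, Subgroup.mem_pointwise_smul_iff_inv_smul_mem]
      simp only [MulAut.smul_def, map_inv, MulAut.conj_inv_apply]
      have e : g⁻¹ * (g * y * g⁻¹) * g = y := by group
      rw [e]
      exact hy
    have h := hc _ hy'
    have e : y * c = g⁻¹ * ((g * y * g⁻¹) * (g * c * g⁻¹)) * g := by group
    rw [e, h]
    group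

theorem main : Cnt.{u} := by
  intro G _ _ p _ Q hQ
  classical
  have hp : p.Prime := Fact.out
  haveI : Fintype (Sylow p G) := Fintype.ofFinite _
  have hcard : ∀ Q' : Sylow p G, Nat.card (Q' : Subgroup G) = p :=
    fun Q' => (Sylow.card_eq_multiplicity Q').trans ((Sylow.card_eq_multiplicity Q).symm.trans hQ)
  -- the injection from pairs (Sylow subgroup, element of its centralizer) to elements
  have hinj : Function.Injective
      (fun x : (Σ Q' : Sylow p G,
          {c : ↥(centralizer ((Q' : Subgroup G) : Set G)) // p ∣ orderOf (c : G)}) =>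
        (⟨((x.2 : ↥(centralizer ((x.1 : Subgroup G) : Set G))) : G), x.2.2⟩ :
          {g : G // p ∣ orderOf g})) := by
    rintro ⟨Q1, c1⟩ ⟨Q2, c2⟩ h
    have h' : ((c1 : ↥(centralizer ((Q1 : Subgroup G) : Set G))) : G) =
        ((c2 : ↥(centralizer ((Q2 : Subgroup G) : Set G))) : G) := congrArg Subtype.val h
    have hQ12 : Q1 = Q2 := by
      apply sylow_unique Q1 Q2 (hcard Q1) (hcard Q2) c1.1.2 _ c1.2
      rw [h']
      exact c2.1.2
    subst hQ12
    have : c1 = c2 := Subtype.ext (Subtype.ext h')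
    rw [this]
  have h1 := Nat.card_le_card_of_injective _ hinj
  rw [Nat.card_sigma] at h1
  have h2 : ∀ Q' : Sylow p G, (p - 1) * Nat.card (centralizer ((Q : Subgroup G) : Set G)) ≤
      p * Nat.card {c : ↥(centralizer ((Q' : Subgroup G) : Set G)) // p ∣ orderOf (c : G)} := by
    intro Q'
    rw [← card_centralizer_eq Q Q']
    exact step1 Q' (hcard Q')
  have h3 : Fintype.card (Sylow p G) * ((p - 1) *
      Nat.card (centralizer ((Q : Subgroup G) : Set G))) ≤
      p * Nat.card {g : G // p ∣ orderOf g} := by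
    calc Fintype.card (Sylow p G) * ((p - 1) *
        Nat.card (centralizer ((Q : Subgroup G) : Set G)))
        = ∑ _Q' : Sylow p G, (p - 1) * Nat.card (centralizer ((Q : Subgroup G) : Set G)) := by
          rw [Finset.sum_const, Finset.card_univ, smul_eq_mul]
      _ ≤ ∑ Q' : Sylow p G, p * Nat.card
          {c : ↥(centralizer ((Q' : Subgroup G) : Set G)) // p ∣ orderOf (c : G)} :=
          Finset.sum_le_sum (fun Q' _ => h2 Q')
      _ = p * ∑ Q' : Sylow p G, Nat.card
          {c : ↥(centralizer ((Q' : Subgroup G) : Set G)) // p ∣ orderOf (c : G)} := by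
          rw [Finset.mul_sum]
      _ ≤ p * Nat.card {g : G // p ∣ orderOf g} := Nat.mul_le_mul_left _ h1
  have h4 : Nat.card (Sylow p G) * Nat.card (normalizer ((Q : Subgroup G) : Set G)) =
      Nat.card G := by
    rw [Sylow.card_eq_index_normalizer Q, mul_comm]
    exact Subgroup.card_mul_index _
  rw [Nat.card_eq_fintype_card] at h4
  calc (p - 1) * Nat.card G * Nat.card (centralizer ((Q : Subgroup G) : Set G))
      = Nat.card (normalizer ((Q : Subgroup G) : Set G)) * (Fintype.card (Sylow p G) * ((p - 1) *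
        Nat.card (centralizer ((Q : Subgroup G) : Set G)))) := by
        rw [← h4]
        ring
    _ ≤ Nat.card (normalizer ((Q : Subgroup G) : Set G)) *
        (p * Nat.card {g : G // p ∣ orderOf g}) := Nat.mul_le_mul_left _ h3
    _ = p * Nat.card (normalizer ((Q : Subgroup G) : Set G)) *
        Nat.card {g : G // p ∣ orderOf g} := by ring

end Cfsg.Agent.Lib.Helper69.J1CNT
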