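import Mathlib
import Cfsg.Agent.Lib.Helper44.MCentStmt

set_option autoImplicit false

/-! Piece [FC] of S2716: the order of a field automorphism divides the degree, and the size of
its fixed field. -/

namespace Cfsg.Agent.Lib.Helper69.MCentFC

open Matrix Module QuadraticMap
open Cfsg.Agent.Lib.Helper45.OmegaAut Cfsg.Agent.Lib.Helper43.H90Fin
open Cfsg.Agent.Lib.Helper44.MFld0 Cfsg.Agent.Lib.Helper44.MFldStmt
  Cfsg.Agent.Lib.Helper44.MCentStmt

universe u

theorem main : FixCardP.{u} := by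
  intro F _ _ p f hp hcard σ
  have h1 := card_fixF σ
  rw [Nat.card_eq_fintype_card (α := F), hcard] at h1
  have hn : orderOf σ ≠ 0 := by
    intro h0
    rw [h0, pow_zero] at h1
    have h2 := Fintype.one_lt_card (α := F)
    omega
  have hdvd : Nat.card ↥(fixF σ) ∣ p ^ f := by
    rw [← h1]
    exact dvd_pow_self _ hn
  obtain ⟨k, hk, hq⟩ := (Nat.dvd_prime_pow hp).mp hdvd
  rw [hq, ← pow_mul] at h1
  have hkf : k * orderOf σ = f := Nat.pow_right_injective hp.two_le h1
  refine ⟨⟨k, by rw [← hkf, mul_comm]⟩, ?_⟩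
  rw [hq, ← hkf, Nat.mul_div_cancel _ (Nat.pos_of_ne_zero hn)]

end Cfsg.Agent.Lib.Helper69.MCentFC
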