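import Mathlib
import Cfsg.Agent.Lib.Helper44.MCentStmt

set_option autoImplicit false
set_option linter.style.haveILetI false

/-! Piece [OD] of S2716: a field automorphism fixing the coefficients of an anisotropic binary
form is not an involution (relative to the piece `RootK`). -/

namespace Cfsg.Agent.Lib.Helper69.MCentOD

open Matrix Module QuadraticMap
open Cfsg.Agent.Lib.Helper45.OmegaAut Cfsg.Agent.Lib.Helper43.H90Fin
open Cfsg.Agent.Lib.Helper44.MFld0 Cfsg.Agent.Lib.Helper44.MFldStmt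
  Cfsg.Agent.Lib.Helper44.MCentStmt

universe u

theorem main (hRK : RootK.{u}) : OddOrder.{u} := by
  intro F _ _ a b hab σ ha hb h2
  haveI : Fintype ↥(fixF σ) := Fintype.ofFinite _
  have h1 := card_fixF σ
  rw [h2, Nat.card_eq_fintype_card, Nat.card_eq_fintype_card] at h1
  have h3 := Module.card_eq_pow_finrank (K := ↥(fixF σ)) (V := F)
  have hE2 : 2 ≤ Fintype.card ↥(fixF σ) := Fintype.one_lt_card
  have hfr : Module.finrank ↥(fixF σ) F = 2 := by
    have h4 : Fintype.card ↥(fixF σ) ^ Module.finrank ↥(fixF σ) F = Fintype.card ↥(fixF σ) ^ 2 := by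
      rw [← h3, h1]
    exact Nat.pow_right_injective hE2 h4
  have haE : a ∈ fixF σ := (mem_fixF σ a).mpr ha
  have hbE : b ∈ fixF σ := (mem_fixF σ b).mpr hb
  have habE : Aniso (⟨a, haE⟩ : ↥(fixF σ)) ⟨b, hbE⟩ := by
    intro z₁ z₂ hz
    have hz' := congrArg (fun x : ↥(fixF σ) => (x : F)) hz
    simp only [Subfield.coe_add, Subfield.coe_mul, SubmonoidClass.coe_pow, ZeroMemClass.coe_zero] at hz'
    obtain ⟨e1, e2⟩ := hab (z₁ : F) (z₂ : F) hz'
    exact ⟨Subtype.ext e1, Subtype.ext e2⟩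
  obtain ⟨ρ, hρ⟩ := hRK ↥(fixF σ) ⟨a, haE⟩ ⟨b, hbE⟩ habE F hfr
  have hρ' : ρ ^ 2 + a * ρ * 1 + b * 1 ^ 2 = 0 := by
    have e1 : algebraMap ↥(fixF σ) F ⟨a, haE⟩ = a := rfl
    have e2 : algebraMap ↥(fixF σ) F ⟨b, hbE⟩ = b := rfl
    rw [e1, e2] at hρ
    linear_combination hρ
  exact one_ne_zero (hab ρ 1 hρ').2

end Cfsg.Agent.Lib.Helper69.MCentOD
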