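import Mathlib
import Cfsg.Agent.Lib.CT.PairCount

/-!
Order `459648 = 2^7 * 3^3 * 7 * 19`: numeric lemmas and character sums over the cyclic groups
generated by an involution and by the product of an involution with an element of order `19`.
-/

set_option autoImplicit false

namespace Cfsg.Agent.Lib.Helper69.O459a

open Cfsg
open Cfsg.Agent.Lib.CT.PairCount

universe u

/-- The possible degrees `≡ ±1 (mod 19)` of a faithful character of the principal `19`-block. -/
theorem key_deg : ∀ d ∈ Finset.range 678, d ∣ 459648 → 38 ≤ d →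
    (d % 19 = 1 → d = 96) ∧ (d % 19 = 18 → d = 56 ∨ d = 189) := by
  decide +kernel

/-- The degree equation of the principal `19`-block. -/
theorem key_num : ∀ r ∈ ({2, 3, 6} : Finset ℕ), ∀ a ∈ Finset.range 6, ∀ b ∈ Finset.range 6,
    ∀ c ∈ Finset.range 6, a + b + c + 1 = r →
    ((1 - 56 * (a : ℤ) + 96 * (b : ℤ) - 189 * (c : ℤ)).natAbs ∣ 459648) →
    1 + 3136 * a + 9216 * b + 35721 * c
      + (18 / r) * ((1 - 56 * (a : ℤ) + 96 * (b : ℤ) - 189 * (c : ℤ)).natAbs
        * (1 - 56 * (a : ℤ) + 96 * (b : ℤ) - 189 * (c : ℤ)).natAbs) ≤ 459648 →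
    r = 6 ∧ a = 2 ∧ b = 2 ∧ c = 1 := by
  decide +kernel

/-- The lower bound for the column of an involution. -/
theorem key_col (vb1 vb2 vc : ℤ) (hb1 : vb1 = 20 ∨ vb1 = -56) (hb2 : vb2 = 20 ∨ vb2 = -56)
    (hc : vc = -115 ∨ vc = -39 ∨ vc = 37 ∨ vc = 113) :
    (8778 : ℤ) ≤ 1 + 800 + vb1 * vb1 + vb2 * vb2 + vc * vc
      + 3 * ((41 + vb1 + vb2 - vc) * (41 + vb1 + vb2 - vc)) := by
  rcases hb1 with rfl | rfl <;> rcases hb2 with rfl | rfl <;>
    rcases hc with rfl | rfl | rfl | rfl <;> norm_num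

/-- A sum over a cyclic subgroup as a sum over exponents. -/
theorem sum_zpowers {G : Type u} [Group G] [Finite G] (g : G) (f : G → ℂ)
    [Fintype (Subgroup.zpowers g)] :
    ∑ w : Subgroup.zpowers g, f (w : G) = ∑ k ∈ Finset.range (orderOf g), f (g ^ k) := by
  rw [← Fin.sum_univ_eq_sum_range (fun k => f (g ^ k)) (orderOf g)]
  symm
  exact Fintype.sum_equiv (finEquivZPowers (isOfFinOrder_of_finite g))
    (fun i : Fin (orderOf g) => f (g ^ (i : ℕ))) (fun w : Subgroup.zpowers g => f (w : G))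
    (fun i => by rw [finEquivZPowers_apply])

/-- The multiplicity of the trivial character of `⟨t⟩` in a character. -/
theorem char_sum_two {G : Type u} [Group G] [Fintype G] {χ : G → ℂ} (hχ : IsCharacter G χ)
    (t : G) (ht : orderOf t = 2) : ∃ m : ℕ, χ 1 + χ t = 2 * m := by
  classical
  obtain ⟨m, hm⟩ := char_sum_subgroup hχ (Subgroup.zpowers t)
  refine ⟨m, ?_⟩
  rw [sum_zpowers, Nat.card_zpowers, ht, Finset.sum_range_succ, Finset.sum_range_one, pow_zero,
    pow_one] at hm
  rw [hm]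
  push_cast
  ring

/-- The multiplicity of the trivial character of `⟨x t⟩` (of order `38`) in a character which is
constant `ε` on the non-identity elements of `⟨x⟩` and of `⟨x⟩ t`. -/
theorem char_sum_cyc {G : Type u} [Group G] [Fintype G] {χ : G → ℂ} (hχ : IsCharacter G χ)
    (x t : G) (hx : orderOf x = 19) (ht : orderOf t = 2) (hxt : x * t = t * x) (ε : ℂ)
    (h1 : ∀ k : ℕ, x ^ k ≠ 1 → χ (x ^ k) = ε ∧ χ (x ^ k * t) = ε) :
    ∃ m : ℕ, χ 1 + χ t + 36 * ε = 38 * m := by
  classical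
  have hc : Commute x t := hxt
  have hord : orderOf (x * t) = 38 := by
    rw [hc.orderOf_mul_eq_mul_orderOf_of_coprime (by rw [hx, ht]; norm_num), hx, ht]
  have hx19 : x ^ 19 = 1 := by rw [← hx]; exact pow_orderOf_eq_one x
  have ht2 : t ^ 2 = 1 := by rw [← ht]; exact pow_orderOf_eq_one t
  have hterm : ∀ k ∈ Finset.range 38, χ ((x * t) ^ k)
      = ε + (if k = 0 then χ 1 - ε else 0) + (if k = 19 then χ t - ε else 0) := by
    intro k hk
    have hk38 : k < 38 := Finset.mem_range.mp hk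
    rw [hc.mul_pow]
    by_cases h0 : k = 0
    · subst h0
      simp
    by_cases h19 : k = 19
    · subst h19
      have ht19 : t ^ 19 = t := by
        calc t ^ 19 = (t ^ 2) ^ 9 * t := by rw [← pow_mul, ← pow_succ]
          _ = t := by rw [ht2, one_pow, one_mul]
      rw [hx19, ht19, one_mul]
      simp
    · have hxk : x ^ k ≠ 1 := by
        intro hxk
        have h2 := orderOf_dvd_of_pow_eq_one hxk
        rw [hx] at h2
        omega
      obtain ⟨ha, hb⟩ := h1 k hxk
      rcases Nat.even_or_odd k with ⟨j, hj⟩ | ⟨j, hj⟩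
      · have h3 : t ^ k = 1 := by rw [hj, ← two_mul, pow_mul, ht2, one_pow]
        rw [h3, mul_one, ha]
        simp [h0, h19]
      · have h3 : t ^ k = t := by rw [hj, pow_succ, pow_mul, ht2, one_pow, one_mul]
        rw [h3, hb]
        simp [h0, h19]
  have hsum : ∑ k ∈ Finset.range 38, χ ((x * t) ^ k) = χ 1 + χ t + 36 * ε := by
    rw [Finset.sum_congr rfl hterm, Finset.sum_add_distrib, Finset.sum_add_distrib,
      Finset.sum_const, Finset.sum_ite_eq', Finset.sum_ite_eq']
    simp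
    ring
  obtain ⟨m, hm⟩ := char_sum_subgroup hχ (Subgroup.zpowers (x * t))
  refine ⟨m, ?_⟩
  rw [sum_zpowers, Nat.card_zpowers, hord, hsum] at hm
  rw [hm]
  push_cast
  ring

end Cfsg.Agent.Lib.Helper69.O459a
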