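import Mathlib
import Cfsg.Agent.Lib.Helper17.BrTop
import Cfsg.Agent.Lib.Helper17.ExcSimple
import Cfsg.Agent.Lib.Helper17.ExcInv
import Cfsg.Agent.Lib.Helper17.EvenInv
import Cfsg.Agent.Lib.Helper80.Deg2p
import Cfsg.Agent.Lib.Helper80.Integrality
import Cfsg.Agent.Lib.Helper16.ZR
import Cfsg.Agent.Lib.CT.Knorr
import Cfsg.Agent.Lib.Helper69.InvDet
import Cfsg.Agent.Lib.Helper69.O459a

/-!
Order `459648 = 2^7 * 3^3 * 7 * 19`, a Sylow `19`-subgroup `P` with `|N(P)| = 456`: the principal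
`19`-block has degrees `1, 56, 56, 96, 96, 189 | 108, 108, 108`, `|C(P)| = 76`, and every
involution of `C(P)` has a centralizer of order at least `8778`.
-/

set_option autoImplicit false
set_option linter.style.haveILetI false
set_option maxHeartbeats 1000000

namespace Cfsg.Agent.Lib.Helper69.O459b

open Cfsg Subgroup
open Cfsg.Agent.Lib.CT.Orth Cfsg.Agent.Lib.CT.Wedderburn
open Cfsg.Agent.Lib.Helper17.ExcOrb Cfsg.Agent.Lib.Helper17.ExcMain
open Cfsg.Agent.Lib.Helper17.ExcCor Cfsg.Agent.Lib.Helper17.ExcSimple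
open Cfsg.Agent.Lib.Helper17.ExcInv Cfsg.Agent.Lib.Helper17.Sylow2
open Cfsg.Agent.Lib.Helper17.Sylow Cfsg.Agent.Lib.Helper17.EvenInv
open Cfsg.Agent.Lib.Helper69.InvDet Cfsg.Agent.Lib.Helper69.O459a
open scoped ComplexConjugate

universe u

theorem big_centralizer {G : Type u} [Group G] [Finite G] [IsSimpleGroup G]
    (hG : ¬ IsMulCommutative G) (h : Nat.card G = 459648) (P : Sylow 19 G)
    (hP : Nat.card (P : Subgroup G) = 19)
    (hN : Nat.card (normalizer ((P : Subgroup G) : Set G)) = 456) :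
    Nat.card (centralizer ((P : Subgroup G) : Set G)) = 76 ∧
    ∀ t : G, t ∈ centralizer ((P : Subgroup G) : Set G) → orderOf t = 2 →
      8778 ≤ Nat.card (centralizer ({t} : Set G)) := by
  classical
  haveI : Fintype G := Fintype.ofFinite G
  have : Finite (IrrCharacter G) := finite_irrCharacter G
  haveI : Fintype (IrrCharacter G) := Fintype.ofFinite _
  have hp19 : Nat.Prime 19 := by norm_num
  haveI : Fact (Nat.Prime 19) := ⟨hp19⟩
  haveI : Fact (Nat.Prime 2) := ⟨by norm_num⟩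
  have hperf : _root_.commutator G = ⊤ := commutator_eq_top hG
  obtain ⟨r, hr1, hr18, hCr, hC19⟩ := sylow_prime_centralizer hG P hP
  rw [hN] at hCr
  have hr : r = 2 ∨ r = 3 ∨ r = 6 := by
    have h18 : r ∣ 18 := hr18
    have h456 : r ∣ 456 := Dvd.intro_left _ hCr
    have h6 : r ∣ 6 := by
      have h0 := Nat.dvd_gcd h18 h456
      have h1 : Nat.gcd 18 456 = 6 := by decide
      rwa [h1] at h0
    have hr6 : r ∈ Nat.divisors 6 := Nat.mem_divisors.mpr ⟨h6, by norm_num⟩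
    have hd : Nat.divisors 6 = {1, 2, 3, 6} := by decide
    rw [hd] at hr6
    simp only [Finset.mem_insert, Finset.mem_singleton] at hr6
    rcases hr6 with h0 | h0 | h0 | h0
    · exact absurd h0 hr1
    · exact Or.inl h0
    · exact Or.inr (Or.inl h0)
    · exact Or.inr (Or.inr h0)
  have hCcard : ∀ k : ℕ, Nat.card (centralizer ((P : Subgroup G) : Set G)) ≠ 19 ^ k := by
    intro k hk
    rw [hk] at hCr
    have hk2 : k < 3 := by
      by_contra hge
      push Not at hge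
      have h1 : 19 ^ 3 ≤ 19 ^ k := Nat.pow_le_pow_right (by norm_num) hge
      have hrpos : 0 < r := by rcases hr with rfl | rfl | rfl <;> norm_num
      have h2 : 19 ^ k ≤ 19 ^ k * r := Nat.le_mul_of_pos_right _ hrpos
      have h3 : (19 : ℕ) ^ 3 = 6859 := by norm_num
      omega
    rcases (show k = 0 ∨ k = 1 ∨ k = 2 by omega) with rfl | rfl | rfl <;>
      (norm_num at hCr) <;> omega
  have he : (centralizer ((P : Subgroup G) : Set G)).relIndex
      (normalizer ((P : Subgroup G) : Set G)) = r := by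
    have h1 := card_mul_relIndex (centralizer_le_normalizer (s := ((P : Subgroup G) : Set G)))
    rw [hN] at h1
    have hpos : 0 < Nat.card (centralizer ((P : Subgroup G) : Set G)) := Nat.card_pos
    exact Nat.eq_of_mul_eq_mul_left hpos (h1.trans hCr.symm)
  obtain ⟨M, hM⟩ := Cfsg.Agent.Lib.CT.Knorr.exists_isPModular 19 hp19
  have hMp : M.IsPrime := hM.2.1.isPrime
  obtain ⟨X, Y, hB, hdisj, hXc, hYc, εX, ε, hX, hε, hYdeg, hYagree, hYsum⟩ :=
    Cfsg.Agent.Lib.Helper17.BrTop.main 19 M hM P hP r he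
  -- finset versions of `X` and `Y`
  obtain ⟨XF, hmemX⟩ : ∃ XF : Finset (IrrCharacter G), ∀ χ, χ ∈ XF ↔ χ ∈ X :=
    ⟨Finset.univ.filter (fun χ => χ ∈ X), fun χ => by simp⟩
  obtain ⟨YF, hmemY⟩ : ∃ YF : Finset (IrrCharacter G), ∀ χ, χ ∈ YF ↔ χ ∈ Y :=
    ⟨Finset.univ.filter (fun χ => χ ∈ Y), fun χ => by simp⟩
  have hXeq : X = (XF : Set (IrrCharacter G)) := by
    ext χ
    simp [hmemX]
  have hYeq : Y = (YF : Set (IrrCharacter G)) := by
    ext χ
    simp [hmemY]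
  have hXFc : XF.card = r := by
    rw [← hXc, hXeq, _root_.Nat.card_coe_set_eq, Set.ncard_coe_finset]
  have hYFc : YF.card = 18 / r := by
    have h1 : Nat.card Y = 18 / r := hYc
    rw [← h1, hYeq, _root_.Nat.card_coe_set_eq, Set.ncard_coe_finset]
  have hfinsum : ∀ F : IrrCharacter G → ℂ, ∑ᶠ χ ∈ X, F χ = ∑ χ ∈ XF, F χ := by
    intro F
    rw [hXeq, finsum_mem_coe_finset]
  have hdisjF : Disjoint XF YF := by
    rw [Finset.disjoint_left]
    intro χ h1 h2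
    exact (Set.disjoint_left.mp hdisj) ((hmemX χ).mp h1) ((hmemY χ).mp h2)
  -- the trivial character
  have hT : ∀ g : G, ((trivIrr G : IrrCharacter G) : G → ℂ) g = 1 := trivIrr_apply G
  have hdegT : charDegree ((trivIrr G : IrrCharacter G) : G → ℂ) = 1 := by
    have h1 := deg_eq (trivIrr G)
    rw [hT 1] at h1
    exact_mod_cast h1.symm
  have htrivB : trivIrr G ∈ principalBlock M G := by
    have h1 := Cfsg.Agent.Lib.Helper16.ZR.mem_blockOf_self hMp (trivIrr G)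
    have h2 : ((trivIrr G : IrrCharacter G) : G → ℂ) = fun _ => 1 := funext hT
    rw [h2] at h1
    exact h1
  have hreg1 : ¬ 19 ∣ orderOf (1 : G) := by
    rw [orderOf_one]
    norm_num
  have hY3 : 3 ≤ YF.card := by
    rw [hYFc]
    rcases hr with rfl | rfl | rfl <;> norm_num
  have htX : trivIrr G ∈ XF := by
    rw [hmemX]
    have h1 := htrivB
    rw [hB] at h1
    rcases h1 with h1 | h1
    · exact h1
    · exfalso
      obtain ⟨θ, hθY, hθne⟩ : ∃ θ ∈ YF, θ ≠ trivIrr G := by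
        by_contra hcon
        push Not at hcon
        have hsub : YF ⊆ {trivIrr G} := fun θ hθ => Finset.mem_singleton.mpr (hcon θ hθ)
        have h2 := Finset.card_le_card hsub
        rw [Finset.card_singleton] at h2
        omega
      have h2 := hYagree θ ((hmemY θ).mp hθY) (trivIrr G) h1 1 hreg1
      rw [hT 1, deg_eq θ] at h2
      have h3 : charDegree (θ : G → ℂ) = 1 := by exact_mod_cast h2
      exact charDegree_ne_one hG θ hθne h3
  have hεT : εX (trivIrr G) = 1 := by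
    obtain ⟨h1, h2, -⟩ := hX (trivIrr G) ((hmemX _).mp htX)
    rw [hdegT] at h2
    rcases h1 with h1 | h1
    · exact h1
    · rw [h1] at h2
      exfalso
      unfold Int.ModEq at h2
      norm_num at h2
  -- degrees of the nontrivial members of `X`
  have hXdeg : ∀ χ ∈ XF, χ ≠ trivIrr G →
      (charDegree (χ : G → ℂ) = 56 ∧ εX χ = -1) ∨ (charDegree (χ : G → ℂ) = 96 ∧ εX χ = 1) ∨
      (charDegree (χ : G → ℂ) = 189 ∧ εX χ = -1) := by
    intro χ hχX hχT
    obtain ⟨hεχ, hmod, -⟩ := hX χ ((hmemX χ).mp hχX)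
    have hdvd : charDegree (χ : G → ℂ) ∣ 459648 :=
      h ▸ Cfsg.Agent.Lib.Helper80.Integrality.charDegree_dvd_card χ
    have hsq : charDegree (χ : G → ℂ) * charDegree (χ : G → ℂ) < 459648 := by
      have h1 := sum_charDegree_sq_sum (G := G)
      rw [h] at h1
      have h2 : ∑ ψ ∈ ({trivIrr G, χ} : Finset (IrrCharacter G)), charDegree (ψ : G → ℂ) ^ 2
          ≤ ∑ ψ : IrrCharacter G, charDegree (ψ : G → ℂ) ^ 2 :=
        Finset.sum_le_sum_of_subset (Finset.subset_univ _)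
      rw [Finset.sum_pair (Ne.symm hχT), hdegT, h1] at h2
      nlinarith
    have h38 : 38 ≤ charDegree (χ : G → ℂ) := by
      by_contra hlt
      push Not at hlt
      have hpg := Cfsg.Agent.Lib.Helper80.Deg2p.isPGroup_centralizer 19 M hM hperf P χ
        (by rw [hB]; exact Or.inl ((hmemX χ).mp hχX)) (faithful_of_simple hG χ hχT) (by omega)
      obtain ⟨k, hk⟩ := IsPGroup.iff_card.mp hpg
      exact hCcard k hk
    have hlt : charDegree (χ : G → ℂ) < 678 := by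
      by_contra hc
      push Not at hc
      have h1 := Nat.mul_le_mul hc hc
      omega
    obtain ⟨k1, k2⟩ := key_deg _ (Finset.mem_range.mpr hlt) hdvd h38
    unfold Int.ModEq at hmod
    push_cast at hmod
    rcases hεχ with h1 | h1
    · rw [h1] at hmod
      right; left
      exact ⟨k1 (by omega), h1⟩
    · rw [h1] at hmod
      rcases k2 (by omega) with h2 | h2
      · left; exact ⟨h2, h1⟩
      · right; right; exact ⟨h2, h1⟩
  -- splitting `X`
  obtain ⟨X', hX'⟩ : ∃ X' : Finset (IrrCharacter G), X' = XF.erase (trivIrr G) := ⟨_, rfl⟩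
  have hX'mem : ∀ χ ∈ X', χ ∈ XF ∧ χ ≠ trivIrr G := by
    intro χ hχ
    rw [hX'] at hχ
    exact ⟨Finset.mem_of_mem_erase hχ, Finset.ne_of_mem_erase hχ⟩
  have hXsum : ∀ (Mo : Type) [AddCommMonoid Mo] (F : IrrCharacter G → Mo),
      ∑ χ ∈ XF, F χ = F (trivIrr G) + ∑ χ ∈ X', F χ := by
    intro Mo _ F
    rw [hX']
    exact (Finset.add_sum_erase XF F htX).symm
  obtain ⟨A, hA⟩ : ∃ A : Finset (IrrCharacter G),
      A = X'.filter (fun χ : IrrCharacter G => charDegree (χ : G → ℂ) = 56) := ⟨_, rfl⟩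
  obtain ⟨Bq, hBq⟩ : ∃ Bq : Finset (IrrCharacter G),
      Bq = X'.filter (fun χ : IrrCharacter G => charDegree (χ : G → ℂ) = 96) := ⟨_, rfl⟩
  obtain ⟨Cq, hCq⟩ : ∃ Cq : Finset (IrrCharacter G),
      Cq = X'.filter (fun χ : IrrCharacter G => charDegree (χ : G → ℂ) = 189) := ⟨_, rfl⟩
  have hAmem : ∀ χ ∈ A, χ ∈ XF ∧ χ ≠ trivIrr G ∧ charDegree (χ : G → ℂ) = 56 ∧ εX χ = -1 := by
    intro χ hχ
    rw [hA, Finset.mem_filter] at hχ
    obtain ⟨h1, h2⟩ := hX'mem χ hχ.1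
    refine ⟨h1, h2, hχ.2, ?_⟩
    rcases hXdeg χ h1 h2 with h3 | h3 | h3
    · exact h3.2
    · have := h3.1; have := hχ.2; omega
    · have := h3.1; have := hχ.2; omega
  have hBmem : ∀ χ ∈ Bq, χ ∈ XF ∧ χ ≠ trivIrr G ∧ charDegree (χ : G → ℂ) = 96 ∧ εX χ = 1 := by
    intro χ hχ
    rw [hBq, Finset.mem_filter] at hχ
    obtain ⟨h1, h2⟩ := hX'mem χ hχ.1
    refine ⟨h1, h2, hχ.2, ?_⟩
    rcases hXdeg χ h1 h2 with h3 | h3 | h3
    · have := h3.1; have := hχ.2; omega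
    · exact h3.2
    · have := h3.1; have := hχ.2; omega
  have hCmem : ∀ χ ∈ Cq, χ ∈ XF ∧ χ ≠ trivIrr G ∧ charDegree (χ : G → ℂ) = 189 ∧ εX χ = -1 := by
    intro χ hχ
    rw [hCq, Finset.mem_filter] at hχ
    obtain ⟨h1, h2⟩ := hX'mem χ hχ.1
    refine ⟨h1, h2, hχ.2, ?_⟩
    rcases hXdeg χ h1 h2 with h3 | h3 | h3
    · have := h3.1; have := hχ.2; omega
    · have := h3.1; have := hχ.2; omega
    · exact h3.2
  have hsplit : ∀ (Mo : Type) [AddCommMonoid Mo] (F : IrrCharacter G → Mo),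
      ∑ χ ∈ X', F χ = ∑ χ ∈ A, F χ + ∑ χ ∈ Bq, F χ + ∑ χ ∈ Cq, F χ := by
    intro Mo _ F
    rw [hA, hBq, hCq, Finset.sum_filter, Finset.sum_filter, Finset.sum_filter,
      ← Finset.sum_add_distrib, ← Finset.sum_add_distrib]
    refine Finset.sum_congr rfl (fun χ hχ => ?_)
    obtain ⟨h1, h2⟩ := hX'mem χ hχ
    rcases hXdeg χ h1 h2 with h3 | h3 | h3 <;> simp [h3.1]
  have hcount : A.card + Bq.card + Cq.card + 1 = r := by
    have h1 := hsplit ℕ (fun _ => 1)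
    simp only [Finset.sum_const, smul_eq_mul, mul_one] at h1
    have h2 : X'.card + 1 = r := by
      rw [hX', Finset.card_erase_of_mem htX, ← hXFc]
      have h3 : 0 < XF.card := Finset.card_pos.mpr ⟨_, htX⟩
      omega
    omega
  -- the exceptional characters
  obtain ⟨θ0, hθ0⟩ : ∃ θ0, θ0 ∈ YF := Finset.card_pos.mp (by omega)
  have hθ0Y : θ0 ∈ Y := (hmemY θ0).mp hθ0
  have hYval : ∀ θ ∈ YF, ∀ g : G, ¬ 19 ∣ orderOf g → (θ : G → ℂ) g = (θ0 : G → ℂ) g :=
    fun θ hθ g hg => hYagree θ ((hmemY θ).mp hθ) θ0 hθ0Y g hg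
  have hYdegs : ∀ θ ∈ YF, charDegree (θ : G → ℂ) = charDegree (θ0 : G → ℂ) := by
    intro θ hθ
    have h1 := hYval θ hθ 1 hreg1
    rw [deg_eq θ, deg_eq θ0] at h1
    exact_mod_cast h1
  have hdegeq : ε * (charDegree (θ0 : G → ℂ) : ℤ)
      = 1 - 56 * (A.card : ℤ) + 96 * (Bq.card : ℤ) - 189 * (Cq.card : ℤ) := by
    have h1 := hYsum θ0 hθ0Y 1 hreg1
    rw [hfinsum, hXsum ℂ, hsplit ℂ] at h1
    have hSA : ∑ χ ∈ A, (εX χ : ℂ) * (χ : G → ℂ) 1 = ∑ χ ∈ A, (-56 : ℂ) :=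
      Finset.sum_congr rfl (fun χ hχ => by
        obtain ⟨-, -, h2, h3⟩ := hAmem χ hχ
        rw [deg_eq χ, h2, h3]
        push_cast
        ring)
    have hSB : ∑ χ ∈ Bq, (εX χ : ℂ) * (χ : G → ℂ) 1 = ∑ χ ∈ Bq, (96 : ℂ) :=
      Finset.sum_congr rfl (fun χ hχ => by
        obtain ⟨-, -, h2, h3⟩ := hBmem χ hχ
        rw [deg_eq χ, h2, h3]
        push_cast
        ring)
    have hSC : ∑ χ ∈ Cq, (εX χ : ℂ) * (χ : G → ℂ) 1 = ∑ χ ∈ Cq, (-189 : ℂ) :=
      Finset.sum_congr rfl (fun χ hχ => by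
        obtain ⟨-, -, h2, h3⟩ := hCmem χ hχ
        rw [deg_eq χ, h2, h3]
        push_cast
        ring)
    rw [hSA, hSB, hSC, hεT, hT 1, deg_eq θ0] at h1
    simp only [Finset.sum_const, nsmul_eq_mul] at h1
    have h2 : ((ε * (charDegree (θ0 : G → ℂ) : ℤ) : ℤ) : ℂ)
        = ((1 - 56 * (A.card : ℤ) + 96 * (Bq.card : ℤ) - 189 * (Cq.card : ℤ) : ℤ) : ℂ) := by
      push_cast
      linear_combination h1
    exact_mod_cast h2
  have hsqs : 1 + 3136 * A.card + 9216 * Bq.card + 35721 * Cq.card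
      + (18 / r) * (charDegree (θ0 : G → ℂ) * charDegree (θ0 : G → ℂ)) ≤ 459648 := by
    have h1 := sum_charDegree_sq_sum (G := G)
    rw [h] at h1
    have h2 : ∑ ψ ∈ XF ∪ YF, charDegree (ψ : G → ℂ) ^ 2
        ≤ ∑ ψ : IrrCharacter G, charDegree (ψ : G → ℂ) ^ 2 :=
      Finset.sum_le_sum_of_subset (Finset.subset_univ _)
    rw [Finset.sum_union hdisjF, hXsum ℕ, hsplit ℕ, h1, hdegT] at h2
    have hSA : ∑ χ ∈ A, charDegree (χ : G → ℂ) ^ 2 = ∑ χ ∈ A, 56 ^ 2 :=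
      Finset.sum_congr rfl (fun χ hχ => by rw [(hAmem χ hχ).2.2.1])
    have hSB : ∑ χ ∈ Bq, charDegree (χ : G → ℂ) ^ 2 = ∑ χ ∈ Bq, 96 ^ 2 :=
      Finset.sum_congr rfl (fun χ hχ => by rw [(hBmem χ hχ).2.2.1])
    have hSC : ∑ χ ∈ Cq, charDegree (χ : G → ℂ) ^ 2 = ∑ χ ∈ Cq, 189 ^ 2 :=
      Finset.sum_congr rfl (fun χ hχ => by rw [(hCmem χ hχ).2.2.1])
    have hSY : ∑ θ ∈ YF, charDegree (θ : G → ℂ) ^ 2
        = ∑ θ ∈ YF, charDegree (θ0 : G → ℂ) ^ 2 :=
      Finset.sum_congr rfl (fun θ hθ => by rw [hYdegs θ hθ])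
    rw [hSA, hSB, hSC, hSY] at h2
    simp only [Finset.sum_const, smul_eq_mul, hYFc] at h2
    nlinarith
  have hAle : A.card < 6 := by rcases hr with rfl | rfl | rfl <;> omega
  have hBle : Bq.card < 6 := by rcases hr with rfl | rfl | rfl <;> omega
  have hCle : Cq.card < 6 := by rcases hr with rfl | rfl | rfl <;> omega
  have hD := Cfsg.Agent.Lib.Helper80.Integrality.charDegree_dvd_card θ0
  rw [h] at hD
  have hnat : (1 - 56 * (A.card : ℤ) + 96 * (Bq.card : ℤ) - 189 * (Cq.card : ℤ)).natAbs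
      = charDegree (θ0 : G → ℂ) := by
    rw [← hdegeq, Int.natAbs_mul, Int.natAbs_natCast]
    rcases hε with h1 | h1 <;> rw [h1] <;> simp
  obtain ⟨hr6, ha2, hb2, hc1⟩ := key_num r
    (by rcases hr with rfl | rfl | rfl <;> simp)
    A.card (Finset.mem_range.mpr hAle) Bq.card (Finset.mem_range.mpr hBle)
    Cq.card (Finset.mem_range.mpr hCle) hcount (by rw [hnat]; exact hD)
    (by rw [hnat]; exact hsqs)
  have hD108 : charDegree (θ0 : G → ℂ) = 108 := by
    rw [← hnat, ha2, hb2, hc1]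
    decide
  have hεm : ε = -1 := by
    rw [hD108, ha2, hb2, hc1] at hdegeq
    rcases hε with h1 | h1
    · rw [h1] at hdegeq
      norm_num at hdegeq
    · exact h1
  subst hr6
  have hC76 : Nat.card (centralizer ((P : Subgroup G) : Set G)) = 76 := by omega
  refine ⟨hC76, ?_⟩
  -- the involutions of `C(P)`
  intro t htC ht
  have htt : t * t = 1 := by
    have h1 := pow_orderOf_eq_one t
    rwa [ht, pow_two] at h1
  have ht1 : t ≠ 1 := by
    rintro rfl
    rw [orderOf_one] at ht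
    omega
  have htreg : ¬ 19 ∣ orderOf t := by
    rw [ht]
    norm_num
  obtain ⟨x0, hx0P, hx0⟩ := exists_mem_orderOf_eq_prime (P : Subgroup G) 19 (by rw [hP])
  have hxt : x0 * t = t * x0 := (mem_centralizer_iff.mp htC) x0 hx0P
  have h1C : (1 : G) ∈ centralizer ((P : Subgroup G) : Set G) := one_mem _
  have hval : ∀ χ ∈ XF, ∃ v : ℤ, (χ : G → ℂ) t = (v : ℂ) ∧
      ((charDegree (χ : G → ℂ) : ℤ) - v) % 4 = 0 ∧ v ≤ (charDegree (χ : G → ℂ) : ℤ) ∧
      (χ ≠ trivIrr G → v ≠ (charDegree (χ : G → ℂ) : ℤ)) ∧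
      0 ≤ (charDegree (χ : G → ℂ) : ℤ) + v ∧
      ∃ m2 : ℕ, (charDegree (χ : G → ℂ) : ℤ) + v + 36 * εX χ = 38 * (m2 : ℤ) := by
    intro χ hχ
    obtain ⟨-, -, hval0⟩ := hX χ ((hmemX χ).mp hχ)
    obtain ⟨m, hm⟩ := char_invol hperf (isCharacter_of_irr χ.2) t htt
    refine ⟨(charDegree (χ : G → ℂ) : ℤ) - 4 * m, ?_, by omega, by omega, ?_, ?_, ?_⟩
    · rw [hm, deg_eq χ]
      push_cast
      ring
    · intro hχT hv
      have hm0 : m = 0 := by omega
      apply ht1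
      apply faithful_of_simple hG χ hχT t
      rw [hm, hm0]
      simp
    · obtain ⟨m3, hm3⟩ := char_sum_two (isCharacter_of_irr χ.2) t ht
      rw [hm, deg_eq χ] at hm3
      have h2 : (((charDegree (χ : G → ℂ) : ℤ) + ((charDegree (χ : G → ℂ) : ℤ) - 4 * m) : ℤ) : ℂ)
          = ((2 * (m3 : ℤ) : ℤ) : ℂ) := by
        push_cast
        linear_combination hm3
      have h3 : (charDegree (χ : G → ℂ) : ℤ) + ((charDegree (χ : G → ℂ) : ℤ) - 4 * m)
          = 2 * (m3 : ℤ) := by exact_mod_cast h2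
      omega
    · obtain ⟨m2, hm2⟩ := char_sum_cyc (isCharacter_of_irr χ.2) x0 t hx0 ht hxt (εX χ : ℂ) (by
        intro k hk
        have hkP : x0 ^ k ∈ (P : Subgroup G) := Subgroup.pow_mem _ hx0P k
        constructor
        · have h2 := hval0 (x0 ^ k) hkP hk 1 h1C hreg1
          rwa [mul_one] at h2
        · exact hval0 (x0 ^ k) hkP hk t htC htreg)
      refine ⟨m2, ?_⟩
      rw [hm, deg_eq χ] at hm2
      have h2 : (((charDegree (χ : G → ℂ) : ℤ) + ((charDegree (χ : G → ℂ) : ℤ) - 4 * m)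
          + 36 * εX χ : ℤ) : ℂ) = ((38 * (m2 : ℤ) : ℤ) : ℂ) := by
        push_cast
        linear_combination hm2
      exact_mod_cast h2
  have hvA : ∀ χ ∈ A, (χ : G → ℂ) t = ((-20 : ℤ) : ℂ) := by
    intro χ hχ
    obtain ⟨h1, h2, h3, h4⟩ := hAmem χ hχ
    obtain ⟨v, hv, hmod, hle, hne, hge, m2, hm2⟩ := hval χ h1
    have hne' := hne h2
    rw [h3] at hmod hle hne' hge hm2
    rw [h4] at hm2
    have hv20 : v = -20 := by
      push_cast at hmod hle hne' hge hm2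
      omega
    rw [hv, hv20]
  have hvB : ∀ χ ∈ Bq, ∃ v : ℤ, (χ : G → ℂ) t = (v : ℂ) ∧ (v = 20 ∨ v = -56) := by
    intro χ hχ
    obtain ⟨h1, h2, h3, h4⟩ := hBmem χ hχ
    obtain ⟨v, hv, hmod, hle, hne, hge, m2, hm2⟩ := hval χ h1
    have hne' := hne h2
    rw [h3] at hmod hle hne' hge hm2
    rw [h4] at hm2
    refine ⟨v, hv, ?_⟩
    push_cast at hmod hle hne' hge hm2
    omega
  have hvC : ∀ χ ∈ Cq, ∃ v : ℤ, (χ : G → ℂ) t = (v : ℂ) ∧
      (v = -115 ∨ v = -39 ∨ v = 37 ∨ v = 113) := by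
    intro χ hχ
    obtain ⟨h1, h2, h3, h4⟩ := hCmem χ hχ
    obtain ⟨v, hv, hmod, hle, hne, hge, m2, hm2⟩ := hval χ h1
    have hne' := hne h2
    rw [h3] at hmod hle hne' hge hm2
    rw [h4] at hm2
    refine ⟨v, hv, ?_⟩
    push_cast at hmod hle hne' hge hm2
    omega
  -- explicit members
  obtain ⟨a1, a2, ha12, hAeq⟩ := Finset.card_eq_two.mp ha2
  obtain ⟨b1, b2, hb12, hBeq⟩ := Finset.card_eq_two.mp hb2
  obtain ⟨c1, hCeq⟩ := Finset.card_eq_one.mp hc1
  have ha1 := hvA a1 (by rw [hAeq]; simp)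
  have ha2' := hvA a2 (by rw [hAeq]; simp)
  have hεa1 := (hAmem a1 (by rw [hAeq]; simp)).2.2.2
  have hεa2 := (hAmem a2 (by rw [hAeq]; simp)).2.2.2
  obtain ⟨vb1, hvb1, hb1⟩ := hvB b1 (by rw [hBeq]; simp)
  obtain ⟨vb2, hvb2, hb2'⟩ := hvB b2 (by rw [hBeq]; simp)
  have hεb1 := (hBmem b1 (by rw [hBeq]; simp)).2.2.2
  have hεb2 := (hBmem b2 (by rw [hBeq]; simp)).2.2.2
  obtain ⟨vc, hvc, hc⟩ := hvC c1 (by rw [hCeq]; simp)
  have hεc1 := (hCmem c1 (by rw [hCeq]; simp)).2.2.2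
  -- the value of the exceptional characters
  have hθt : (θ0 : G → ℂ) t = ((-(41 + vb1 + vb2 - vc) : ℤ) : ℂ) := by
    have h1 := hYsum θ0 hθ0Y t htreg
    rw [hfinsum, hXsum ℂ, hsplit ℂ] at h1
    rw [hAeq, hBeq, hCeq, Finset.sum_pair ha12,
      Finset.sum_pair hb12, Finset.sum_singleton, hεT, hT t, ha1, ha2', hvb1, hvb2, hvc,
      hεa1, hεa2, hεb1, hεb2, hεc1, hεm] at h1
    push_cast at h1
    push_cast
    linear_combination -h1
  -- the column of `t`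
  have hcS := second_orthogonality_sum_of_isConj t t (IsConj.refl t)
  have h1 : ∑ ψ : IrrCharacter G, Complex.normSq ((ψ : G → ℂ) t)
      = (Nat.card (centralizer ({t} : Set G)) : ℝ) := by
    have h2 : ((∑ ψ : IrrCharacter G, Complex.normSq ((ψ : G → ℂ) t) : ℝ) : ℂ)
        = ((Nat.card (centralizer ({t} : Set G)) : ℝ) : ℂ) := by
      rw [Complex.ofReal_sum]
      push_cast
      rw [← hcS]
      refine Finset.sum_congr rfl (fun ψ _ => ?_)
      rw [Complex.mul_conj]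
    exact_mod_cast h2
  have h3 : ∑ ψ ∈ XF ∪ YF, Complex.normSq ((ψ : G → ℂ) t)
      ≤ ∑ ψ : IrrCharacter G, Complex.normSq ((ψ : G → ℂ) t) :=
    Finset.sum_le_sum_of_subset_of_nonneg (Finset.subset_univ _)
      (fun ψ _ _ => Complex.normSq_nonneg _)
  have hSY : ∑ θ ∈ YF, Complex.normSq ((θ : G → ℂ) t)
      = ∑ θ ∈ YF, Complex.normSq ((θ0 : G → ℂ) t) :=
    Finset.sum_congr rfl (fun θ hθ => by rw [hYval θ hθ t htreg])
  have hY3' : YF.card = 3 := by rw [hYFc]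
  rw [Finset.sum_union hdisjF, hXsum ℝ, hsplit ℝ, hAeq, hBeq, hCeq, Finset.sum_pair ha12,
    Finset.sum_pair hb12, Finset.sum_singleton, hSY, Finset.sum_const, hY3', h1, hT t, ha1, ha2',
    hvb1, hvb2, hvc, hθt] at h3
  simp only [Complex.normSq_one, Complex.normSq_intCast, nsmul_eq_mul] at h3
  have hnum := key_col vb1 vb2 vc hb1 hb2' hc
  have h4 : ((8778 : ℤ) : ℝ) ≤ ((Nat.card (centralizer ({t} : Set G)) : ℤ) : ℝ) := by
    have h5 : (((8778 : ℤ)) : ℝ) ≤ ((1 + 800 + vb1 * vb1 + vb2 * vb2 + vc * vc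
      + 3 * ((41 + vb1 + vb2 - vc) * (41 + vb1 + vb2 - vc)) : ℤ) : ℝ) := by
      exact_mod_cast hnum
    push_cast at h5 h3 ⊢
    linarith
  exact_mod_cast h4

end Cfsg.Agent.Lib.Helper69.O459b
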