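import Mathlib
import Cfsg.Agent.Lib.Helper98.PSpStmt

set_option autoImplicit false

/-
helper69: piece A1 of S3421 (helper98's call): a cyclic subgroup of order `m₂` contains the
centraliser of each of its non-identity elements.
-/

namespace Cfsg.Agent.Lib.Helper69.PSpA1

open Cfsg.Agent.Lib.Helper98

universe u

theorem main (hC2 : PSpStmt.Cent2.{u}) (hK2 : PSpStmt.Card2.{u}) : PSpStmt.A1.{u} := by
  intro G _ p q m₁ m₂ h y a c hy ha ha1 hca
  have hfin := h.fin
  have hm2 := h.m2ge
  have ham : a ^ m₂ = 1 := by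
    obtain ⟨k, rfl⟩ := Subgroup.mem_zpowers_iff.mp ha
    rw [← zpow_natCast, ← zpow_mul, mul_comm, zpow_mul, zpow_natCast, ← hy, pow_orderOf_eq_one,
      one_zpow]
  have hexp : ∀ c ∈ Subgroup.centralizer ({a} : Set G), c ^ m₂ = 1 := by
    intro c hc
    refine hC2 G p q m₁ m₂ h a c ha1 ham ?_
    have := Subgroup.mem_centralizer_iff.mp hc a (Set.mem_singleton a)
    exact this.symm
  have hdvd := hK2 G p q m₁ m₂ h (Subgroup.centralizer ({a} : Set G)) hexp
  have hle : Subgroup.zpowers y ≤ Subgroup.centralizer ({a} : Set G) := by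
    intro z hz
    obtain ⟨k, rfl⟩ := Subgroup.mem_zpowers_iff.mp ha
    obtain ⟨j, rfl⟩ := Subgroup.mem_zpowers_iff.mp hz
    rw [Subgroup.mem_centralizer_iff]
    intro w hw
    rw [Set.mem_singleton_iff] at hw
    rw [hw]
    exact ((Commute.refl y).zpow_zpow k j).eq
  have hcardA : Nat.card (Subgroup.zpowers y) = m₂ := by rw [Nat.card_zpowers, hy]
  have hcard : Nat.card (Subgroup.centralizer ({a} : Set G)) ≤ Nat.card (Subgroup.zpowers y) := by
    rw [hcardA]
    exact Nat.le_of_dvd (by omega) hdvd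
  have heq := Subgroup.eq_of_le_of_card_ge hle hcard
  rw [heq]
  rw [Subgroup.mem_centralizer_iff]
  intro w hw
  rw [Set.mem_singleton_iff] at hw
  rw [hw]
  exact hca.eq.symm

end Cfsg.Agent.Lib.Helper69.PSpA1
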