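import Mathlib
import Cfsg.Agent.Lib.Helper98.PSpStmt

set_option autoImplicit false

/-
helper69: piece FROB of S3421 (helper98's call): an abelian Hall subgroup `C` containing the
centraliser of each of its non-identity elements has `[G : N(C)] ≡ 1 mod |C|`
(`C` acts on `G ⧸ N(C)` with exactly one fixed point and freely elsewhere; Burnside's lemma).
-/

namespace Cfsg.Agent.Lib.Helper69.PSpFROB

open Cfsg.Agent.Lib.Helper98

universe u

/-- an element `g` such that `g⁻¹ c g ∈ N(C)` for some `c ≠ 1` in `C` normalises `C`. -/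
theorem mem_normalizer_of_conj_mem {G : Type u} [Group G] [Finite G] (C : Subgroup G)
    (hcop : (Nat.card C).Coprime C.index) (hab : ∀ a ∈ C, ∀ b ∈ C, a * b = b * a)
    (hcent : ∀ c ∈ C, c ≠ 1 → ∀ g : G, Commute g c → g ∈ C)
    {c g : G} (hc : c ∈ C) (hc1 : c ≠ 1)
    (hN : g⁻¹ * c * g ∈ Subgroup.normalizer (C : Set G)) :
    g ∈ Subgroup.normalizer (C : Set G) := by
  -- `c' = g⁻¹ c g ∈ C`
  have hc' : g⁻¹ * c * g ∈ C := by
    have : (C.subgroupOf (Subgroup.normalizer (C : Set G))).Normal :=
      Subgroup.normal_in_normalizer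
    let n' : ↥(Subgroup.normalizer (C : Set G)) := ⟨g⁻¹ * c * g, hN⟩
    have hpow : n' ^ orderOf c = 1 := by
      apply Subtype.ext
      show (g⁻¹ * c * g) ^ orderOf c = 1
      have e : g⁻¹ * c * g = g⁻¹ * c * g⁻¹⁻¹ := by rw [inv_inv]
      rw [e, conj_pow, pow_orderOf_eq_one]
      group
    have h1 : (QuotientGroup.mk n' :
        ↥(Subgroup.normalizer (C : Set G)) ⧸ C.subgroupOf (Subgroup.normalizer (C : Set G)))
          ^ orderOf c = 1 := by
      rw [← QuotientGroup.mk_pow, hpow]; rfl
    have h2 : (QuotientGroup.mk n' :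
        ↥(Subgroup.normalizer (C : Set G)) ⧸ C.subgroupOf (Subgroup.normalizer (C : Set G)))
          ^ (C.subgroupOf (Subgroup.normalizer (C : Set G))).index = 1 := by
      rw [← QuotientGroup.mk_pow]
      exact (QuotientGroup.eq_one_iff _).mpr (Subgroup.pow_index_mem _ _)
    have hd1 := orderOf_dvd_of_pow_eq_one h1
    have hd2 := orderOf_dvd_of_pow_eq_one h2
    have hd3 : orderOf c ∣ Nat.card C := Subgroup.orderOf_dvd_natCard C hc
    have hd4 : (C.subgroupOf (Subgroup.normalizer (C : Set G))).index ∣ C.index :=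
      Subgroup.relIndex_dvd_index_of_le Subgroup.le_normalizer
    have hcop' : Nat.Coprime (orderOf c)
        (C.subgroupOf (Subgroup.normalizer (C : Set G))).index :=
      Nat.Coprime.coprime_dvd_left hd3 (Nat.Coprime.coprime_dvd_right hd4 hcop)
    have hd5 : orderOf (QuotientGroup.mk n' :
        ↥(Subgroup.normalizer (C : Set G)) ⧸ C.subgroupOf (Subgroup.normalizer (C : Set G)))
          ∣ 1 := by
      have hd := Nat.dvd_gcd hd1 hd2
      rwa [hcop'.gcd_eq_one] at hd
    have h3 := orderOf_eq_one_iff.mp (Nat.dvd_one.mp hd5)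
    have h4 : n' ∈ C.subgroupOf (Subgroup.normalizer (C : Set G)) :=
      (QuotientGroup.eq_one_iff _).mp h3
    exact Subgroup.mem_subgroupOf.mp h4
  have hc'1 : g⁻¹ * c * g ≠ 1 := by
    intro h
    apply hc1
    have e : c = g * (g⁻¹ * c * g) * g⁻¹ := by group
    rw [e, h]; group
  rw [Subgroup.mem_normalizer_iff]
  intro x
  constructor
  · intro hx
    apply hcent c hc hc1
    have h1 : x * (g⁻¹ * c * g) = (g⁻¹ * c * g) * x := hab x hx _ hc'
    show g * x * g⁻¹ * c = c * (g * x * g⁻¹)
    calc g * x * g⁻¹ * c = g * (x * (g⁻¹ * c * g)) * g⁻¹ := by group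
      _ = g * ((g⁻¹ * c * g) * x) * g⁻¹ := by rw [h1]
      _ = c * (g * x * g⁻¹) := by group
  · intro hx
    apply hcent _ hc' hc'1
    have h1 : g * x * g⁻¹ * c = c * (g * x * g⁻¹) := hab _ hx c hc
    show x * (g⁻¹ * c * g) = g⁻¹ * c * g * x
    calc x * (g⁻¹ * c * g) = g⁻¹ * (g * x * g⁻¹ * c) * g := by group
      _ = g⁻¹ * (c * (g * x * g⁻¹)) * g := by rw [h1]
      _ = g⁻¹ * c * g * x := by group

theorem main : PSpStmt.FrobCount.{u} := by
  intro G _ _ C hcop hab hcent
  classical
  have hCN : C ≤ Subgroup.normalizer (C : Set G) := Subgroup.le_normalizer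
  let _ : Fintype C := Fintype.ofFinite C
  let _ : Fintype (G ⧸ Subgroup.normalizer (C : Set G)) := Fintype.ofFinite _
  let _ : ∀ a : C, Fintype (MulAction.fixedBy (G ⧸ Subgroup.normalizer (C : Set G)) a) :=
    fun a => Fintype.ofFinite _
  let _ : Fintype (Quotient (MulAction.orbitRel C (G ⧸ Subgroup.normalizer (C : Set G)))) :=
    Fintype.ofFinite _
  -- fixed points of non-identity elements
  have hfix : ∀ c : C, c ≠ 1 → ∀ x : G ⧸ Subgroup.normalizer (C : Set G), c • x = x →
      x = QuotientGroup.mk 1 := by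
    intro c hc x hx
    induction x using QuotientGroup.induction_on with
    | H g =>
      have hx' : (QuotientGroup.mk ((c : G) * g) : G ⧸ Subgroup.normalizer (C : Set G))
          = QuotientGroup.mk g := hx
      rw [QuotientGroup.eq] at hx'
      have hc'N : g⁻¹ * (c : G) * g ∈ Subgroup.normalizer (C : Set G) := by
        have h1 := (Subgroup.normalizer (C : Set G)).inv_mem hx'
        have e : (((c : G) * g)⁻¹ * g)⁻¹ = g⁻¹ * (c : G) * g := by group
        rwa [e] at h1
      have hc1 : (c : G) ≠ 1 := fun h => hc (Subtype.ext h)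
      have hgN := mem_normalizer_of_conj_mem C hcop hab hcent c.2 hc1 hc'N
      symm
      rw [QuotientGroup.eq]
      simpa using hgN
  have h1 : ∀ a : C, a ≠ 1 →
      Fintype.card (MulAction.fixedBy (G ⧸ Subgroup.normalizer (C : Set G)) a) = 1 := by
    intro a ha
    rw [Fintype.card_eq_one_iff]
    refine ⟨⟨QuotientGroup.mk 1, ?_⟩, ?_⟩
    · show (QuotientGroup.mk ((a : G) * 1) : G ⧸ Subgroup.normalizer (C : Set G))
          = QuotientGroup.mk 1
      rw [QuotientGroup.eq]
      simpa using (Subgroup.normalizer (C : Set G)).inv_mem (hCN a.2)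
    · rintro ⟨x, hx⟩
      exact Subtype.ext (hfix a ha x hx)
  have h2 : Fintype.card (MulAction.fixedBy (G ⧸ Subgroup.normalizer (C : Set G)) (1 : C))
      = Fintype.card (G ⧸ Subgroup.normalizer (C : Set G)) :=
    Fintype.card_congr (Equiv.subtypeUnivEquiv (fun x => one_smul C x))
  have hBurn := MulAction.sum_card_fixedBy_eq_card_orbits_mul_card_group (↥C)
    (G ⧸ Subgroup.normalizer (C : Set G))
  have hsum : (∑ a : C, Fintype.card (MulAction.fixedBy (G ⧸ Subgroup.normalizer (C : Set G)) a))
      = Fintype.card (G ⧸ Subgroup.normalizer (C : Set G)) + (Fintype.card C - 1) := by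
    rw [← Finset.add_sum_erase Finset.univ _ (Finset.mem_univ (1 : C)), h2]
    congr 1
    rw [Finset.sum_congr rfl (fun a ha => h1 a (Finset.ne_of_mem_erase ha))]
    rw [Finset.sum_const, smul_eq_mul, mul_one, Finset.card_erase_of_mem (Finset.mem_univ _),
      Finset.card_univ]
  rw [hsum] at hBurn
  have hidx : (Subgroup.normalizer (C : Set G)).index
      = Fintype.card (G ⧸ Subgroup.normalizer (C : Set G)) := by
    rw [Subgroup.index, Nat.card_eq_fintype_card]
  have hcard : Nat.card C = Fintype.card C := Nat.card_eq_fintype_card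
  rw [hidx, hcard]
  have hpos : 0 < Fintype.card C := Fintype.card_pos
  generalize Fintype.card (Quotient (MulAction.orbitRel C (G ⧸ Subgroup.normalizer (C : Set G))))
    = k at hBurn
  generalize Fintype.card (G ⧸ Subgroup.normalizer (C : Set G)) = X at hBurn ⊢
  generalize Fintype.card C = n at hBurn hpos ⊢
  have h3 : X + n = n * k + 1 := by
    have h4 : k * n = n * k := mul_comm k n
    generalize n * k = m at h4 ⊢
    omega
  show X % n = 1 % n
  rw [← Nat.add_mod_right X n, h3, Nat.mul_add_mod]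

end Cfsg.Agent.Lib.Helper69.PSpFROB
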