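import Mathlib
import Cfsg.Agent.Lib.Helper98.PSpStmt

set_option autoImplicit false

/-
helper69: piece INV of S3421 (helper98's call): an involution normalising a `p`-subgroup
inverts it.
-/

namespace Cfsg.Agent.Lib.Helper69.PSpINV

open Cfsg.Agent.Lib.Helper98

universe u

theorem main (hCP : PSpStmt.CentP.{u}) (hEP : PSpStmt.ExpP.{u}) : PSpStmt.Inv.{u} := by
  intro G _ p q m₁ m₂ h s E hs1 hs2 hE hnorm
  have hfin := h.fin
  have hpp := h.pp
  have hsinv : s⁻¹ = s := by
    rw [inv_eq_iff_mul_eq_one, ← pow_two, hs2]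
  -- `s` fixes no non-identity element of `E`
  have hfix : ∀ e ∈ E, s * e * s⁻¹ = e → e = 1 := by
    intro e he hfe
    by_contra hne
    have hep : e ^ p = 1 := hEP G p q m₁ m₂ h E hE e he
    have hord : orderOf e = p := by
      have hd : orderOf e ∣ p := orderOf_dvd_of_pow_eq_one hep
      rcases (Nat.dvd_prime hpp).mp hd with h1 | h1
      · exact absurd (orderOf_eq_one_iff.mp h1) hne
      · exact h1
    have hcomm : Commute s e := by
      show s * e = e * s
      calc s * e = s * e * s⁻¹ * s := by group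
        _ = e * s := by rw [hfe]
    have hsp : s ^ p = 1 := hCP G p q m₁ m₂ h e s hord hcomm
    have hd1 : orderOf s ∣ p := orderOf_dvd_of_pow_eq_one hsp
    have hd2 : orderOf s ∣ 2 := orderOf_dvd_of_pow_eq_one hs2
    have hcop : Nat.Coprime p 2 := by
      rw [Nat.coprime_primes hpp Nat.prime_two]
      exact h.podd
    have hd3 : orderOf s ∣ 1 := by
      have hd := Nat.dvd_gcd hd1 hd2
      rwa [hcop.gcd_eq_one] at hd
    exact hs1 (orderOf_eq_one_iff.mp (Nat.dvd_one.mp hd3))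
  -- the map `e ↦ e⁻¹ * (s e s⁻¹)` on `E`
  let φ : ↥E → ↥E := fun e =>
    ⟨(e : G)⁻¹ * (s * e * s⁻¹), E.mul_mem (E.inv_mem e.2) (hnorm e e.2)⟩
  have hinj : Function.Injective φ := by
    intro e f hef
    have h1 : (e : G)⁻¹ * (s * e * s⁻¹) = (f : G)⁻¹ * (s * f * s⁻¹) := congrArg Subtype.val hef
    have h2 : s * ((f : G) * (e : G)⁻¹) * s⁻¹ = (f : G) * (e : G)⁻¹ := by
      have e1 : s * ((f : G) * (e : G)⁻¹) * s⁻¹ = (s * f * s⁻¹) * (s * e * s⁻¹)⁻¹ := by group
      have e2 : s * (e : G) * s⁻¹ = (e : G) * ((f : G)⁻¹ * (s * f * s⁻¹)) := by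
        rw [← h1]; group
      rw [e1, e2]; group
    have h3 := hfix _ (E.mul_mem f.2 (E.inv_mem e.2)) h2
    have h4 : (f : G) = e := by
      have := mul_inv_eq_one.mp h3
      exact this
    exact Subtype.ext h4.symm
  have hsurj : Function.Surjective φ := Finite.injective_iff_surjective.mp hinj
  intro e he
  obtain ⟨f, hf⟩ := hsurj ⟨e, he⟩
  have hf' : (f : G)⁻¹ * (s * f * s⁻¹) = e := congrArg Subtype.val hf
  rw [← hf', hsinv]
  have hss : s * s = 1 := by rw [← pow_two, hs2]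
  have e1 : s * ((f : G)⁻¹ * (s * f * s)) * s = s * (f : G)⁻¹ * s * f * (s * s) := by group
  have e2 : ((f : G)⁻¹ * (s * f * s))⁻¹ = s⁻¹ * (f : G)⁻¹ * s⁻¹ * f := by group
  rw [e1, e2, hss, mul_one, hsinv]

end Cfsg.Agent.Lib.Helper69.PSpINV
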