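import Mathlib
import Cfsg.Agent.Lib.Helper85.SCStmt
import Cfsg.Agent.Lib.Helper88.AlpCentric

set_option autoImplicit false

/-!
# S5127-SC / CENT: a receptive subgroup containing its centralizer in `S` is centric.
-/

namespace Cfsg.Agent.Lib.Helper69.SCCENT

open Cfsg Cfsg.FusionSystem Cfsg.Agent.Lib.Helper85.SCStmt

universe u

theorem main : Cfsg.Agent.Lib.Helper85.SCStmt.Cent.{u} := by
  intro Ω _ S _ F Y hrec hle
  exact Cfsg.Agent.Lib.Helper88.AlpCentric.isCentric_of_receptive F hrec hle

end Cfsg.Agent.Lib.Helper69.SCCENT
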