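import Mathlib
import Cfsg.Prelude.Def_OddOrderLocal

set_option autoImplicit false

/-
helper69: generic part of S1362 (Bender–Glauberman: `A(M) \ M_σ` is a TI-subset).
`main` takes the coprimality of `|U|` and `|M_σ|`, the Hall conjugacy inside `U M_σ`
and the conclusion of S1361 as hypotheses; `coprime_U_S` derives the coprimality from the
Hall property of `M_σ` (S1350) and a card equality.
-/

namespace Cfsg.Agent.Lib.Helper69.SigTI

open Cfsg

variable {G : Type*} [Group G]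

theorem mem_normalizer_of_conj {H : Subgroup G} {g : G} (h1 : ∀ x ∈ H, g * x * g⁻¹ ∈ H)
    (h2 : ∀ x ∈ H, g⁻¹ * x * g⁻¹⁻¹ ∈ H) : g ∈ Subgroup.normalizer (H : Set G) := by
  rw [Subgroup.mem_normalizer_iff]
  intro x
  refine ⟨h1 x, fun hx => ?_⟩
  have h3 := h2 _ hx
  have e : g⁻¹ * (g * x * g⁻¹) * g⁻¹⁻¹ = x := by group
  rwa [e] at h3

theorem conj_mem_sup {A B : Subgroup G} {g : G} (hA : ∀ x ∈ A, g * x * g⁻¹ ∈ A)
    (hB : ∀ x ∈ B, g * x * g⁻¹ ∈ B) : ∀ x ∈ A ⊔ B, g * x * g⁻¹ ∈ A ⊔ B := by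
  intro x hx
  have h1 : (A ⊔ B).map (MulAut.conj g).toMonoidHom ≤ A ⊔ B := by
    rw [Subgroup.map_sup]
    apply sup_le_sup
    · rintro _ ⟨a, ha, rfl⟩; exact hA a ha
    · rintro _ ⟨b, hb, rfl⟩; exact hB b hb
  exact h1 ⟨x, hx, rfl⟩

theorem sigmaCore_le (M : Subgroup G) : sigmaCore M ≤ M := by
  rintro _ ⟨s, -, rfl⟩; exact s.2

theorem conj_mem_S {M : Subgroup G} {m s : G} (hm : m ∈ M) (hs : s ∈ sigmaCore M) :
    m * s * m⁻¹ ∈ sigmaCore M := by
  obtain ⟨s', hs', rfl⟩ := hs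
  exact ⟨⟨m, hm⟩ * s' * ⟨m, hm⟩⁻¹,
    (Cfsg.piCore_normal (Cfsg.sigma M) M).conj_mem s' hs' ⟨m, hm⟩, rfl⟩

theorem pow_mul_mem {S : Subgroup G} {u s : G} (hu : ∀ x ∈ S, u⁻¹ * x * u ∈ S) (hs : s ∈ S)
    (k : ℕ) : (u ^ k)⁻¹ * (u * s) ^ k ∈ S := by
  induction k with
  | zero => simp
  | succ k ih =>
    have e : (u ^ (k + 1))⁻¹ * (u * s) ^ (k + 1)
        = u⁻¹ * ((u ^ k)⁻¹ * (u * s) ^ k) * u * s := by
      rw [pow_succ, pow_succ, mul_inv_rev]
      simp only [mul_assoc]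
    rw [e]
    exact S.mul_mem (hu _ ih) hs

theorem coprime_U_S [Finite G] {M K U : Subgroup G}
    (hcard : Nat.card M = Nat.card U * Nat.card (K ⊔ sigmaCore M : Subgroup G))
    (hKSM : K ⊔ sigmaCore M ≤ M)
    (hHall : IsPiHallOf (sigma M) (sigmaCore M) M) :
    (Nat.card U).Coprime (Nat.card (sigmaCore M)) := by
  apply Nat.coprime_of_dvd
  intro q hq hqU hqS
  have hσ := hHall.2.1 q hq hqS
  apply hHall.2.2 q hq hσ
  have h1 : (sigmaCore M).relIndex (K ⊔ sigmaCore M) * (K ⊔ sigmaCore M).relIndex M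
      = (sigmaCore M).relIndex M :=
    Subgroup.relIndex_mul_relIndex _ _ _ le_sup_right hKSM
  have h2 : (K ⊔ sigmaCore M).relIndex M = Nat.card U := by
    have h3 : Nat.card (K ⊔ sigmaCore M : Subgroup G) * (K ⊔ sigmaCore M).relIndex M
        = Nat.card M := by
      have := Subgroup.relIndex_mul_relIndex _ _ _ (bot_le : (⊥ : Subgroup G) ≤ K ⊔ sigmaCore M) hKSM
      rwa [Subgroup.relIndex_bot_left, Subgroup.relIndex_bot_left] at this
    have h4 : Nat.card (K ⊔ sigmaCore M : Subgroup G) * (K ⊔ sigmaCore M).relIndex M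
        = Nat.card (K ⊔ sigmaCore M : Subgroup G) * Nat.card U := by
      rw [h3, hcard, mul_comm]
    exact Nat.eq_of_mul_eq_mul_left Nat.card_pos h4
  rw [← h1, h2]
  exact Dvd.dvd.mul_left hqU _

section Decomp

variable {M K U : Subgroup G}

theorem M_le_normalizer_T (hKU : IsSigmaDecomposition M K U) :
    M ≤ Subgroup.normalizer ((U ⊔ sigmaCore M : Subgroup G) : Set G) := by
  obtain ⟨hUM, hKSM, hdisj, hprod⟩ := hKU.compl
  have hKM : K ≤ M := le_sup_left.trans hKSM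
  have hKn : K ≤ Subgroup.normalizer ((U ⊔ sigmaCore M : Subgroup G) : Set G) := by
    intro k hk
    have key : ∀ k ∈ K, ∀ x ∈ U ⊔ sigmaCore M, k * x * k⁻¹ ∈ U ⊔ sigmaCore M := by
      intro k hk
      exact conj_mem_sup (fun x hx => (Subgroup.mem_normalizer_iff.mp (hKU.normal hk) x).mp hx)
        (fun x hx => conj_mem_S (hKM hk) hx)
    exact mem_normalizer_of_conj (key k hk) (key k⁻¹ (K.inv_mem hk))
  intro m hm
  obtain ⟨a, ha, b, hb, rfl⟩ := hprod m hm
  have hb' : b ∈ Subgroup.normalizer ((U ⊔ sigmaCore M : Subgroup G) : Set G) :=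
    (sup_le hKn (le_sup_right.trans Subgroup.le_normalizer)) hb
  exact mul_mem ((le_sup_left.trans Subgroup.le_normalizer) ha) hb'

theorem conj_mem_T (hKU : IsSigmaDecomposition M K U) {m : G} (hm : m ∈ M) {x : G}
    (hx : x ∈ U ⊔ sigmaCore M) : m * x * m⁻¹ ∈ U ⊔ sigmaCore M :=
  (Subgroup.mem_normalizer_iff.mp (M_le_normalizer_T hKU hm) x).mp hx

theorem isComplIn_T (hKU : IsSigmaDecomposition M K U) :
    IsComplIn U (sigmaCore M) (U ⊔ sigmaCore M) := by
  obtain ⟨hUM, hKSM, hdisj, hprod⟩ := hKU.compl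
  refine ⟨le_sup_left, le_sup_right, ?_, ?_⟩
  · rw [eq_bot_iff, ← hdisj]
    exact inf_le_inf_left U le_sup_right
  · intro t ht
    have hUN : U ≤ Subgroup.normalizer ((sigmaCore M : Subgroup G) : Set G) := fun u hu =>
      mem_normalizer_of_conj (fun x hx => conj_mem_S (hUM hu) hx)
        (fun x hx => conj_mem_S (M.inv_mem (hUM hu)) hx)
    have h := Subgroup.coe_mul_of_left_le_normalizer_right U (sigmaCore M) hUN
    have ht' : t ∈ ((U ⊔ sigmaCore M : Subgroup G) : Set G) := ht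
    rw [h] at ht'
    obtain ⟨a, ha, b, hb, rfl⟩ := ht'
    exact ⟨a, ha, b, hb, rfl⟩

theorem mem_X_conj (hKU : IsSigmaDecomposition M K U) {m a : G} (hm : m ∈ M)
    (ha : a ∈ sigmaA M U \ (sigmaCore M : Set G)) :
    m * a * m⁻¹ ∈ sigmaA M U \ (sigmaCore M : Set G) := by
  obtain ⟨⟨⟨haM, y, hy, hy1, hay⟩, haT⟩, haS⟩ := ha
  refine ⟨⟨⟨M.mul_mem (M.mul_mem hm haM) (M.inv_mem hm), m * y * m⁻¹, conj_mem_S hm hy, ?_, ?_⟩,
    conj_mem_T hKU hm haT⟩, ?_⟩
  · intro h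
    apply hy1
    have e : y = m⁻¹ * (m * y * m⁻¹) * m := by group
    rw [e, h]; group
  · calc m * a * m⁻¹ * (m * y * m⁻¹) = m * (a * y) * m⁻¹ := by group
      _ = m * (y * a) * m⁻¹ := by rw [hay]
      _ = m * y * m⁻¹ * (m * a * m⁻¹) := by group
  · intro h
    apply haS
    have h2 := conj_mem_S (M.inv_mem hm) h
    have e : m⁻¹ * (m * a * m⁻¹) * m⁻¹⁻¹ = a := by group
    rw [e] at h2
    exact h2

theorem M_le_normalizer_X (hKU : IsSigmaDecomposition M K U) :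
    M ≤ Subgroup.normalizer (sigmaA M U \ (sigmaCore M : Set G)) := by
  intro m hm
  refine Subgroup.mem_set_normalizer_iff.mpr fun a => ⟨fun ha => mem_X_conj hKU hm ha, fun ha => ?_⟩
  have h := mem_X_conj hKU (M.inv_mem hm) ha
  have e : m⁻¹ * (m * a * m⁻¹) * m⁻¹⁻¹ = a := by group
  rwa [e] at h

theorem key [Finite G] (hKU : IsSigmaDecomposition M K U)
    (hcop : (Nat.card U).Coprime (Nat.card (sigmaCore M)))
    (hconj : ∀ X₀ : Subgroup G, X₀ ≤ U ⊔ sigmaCore M →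
        (Nat.card X₀).Coprime (Nat.card (sigmaCore M)) →
        ∃ c ∈ U ⊔ sigmaCore M, X₀.map (MulAut.conj c).toMonoidHom ≤ U)
    (h1361 : ∀ X : Subgroup G, X ≤ U → X ≠ ⊥ →
        sigmaCore M ⊓ Subgroup.centralizer (X : Set G) ≠ ⊥ →
        Subgroup.centralizer (X : Set G) ≤ M ∧
          ∀ L : Subgroup G, IsCoatom L → Subgroup.centralizer (X : Set G) ≤ L → L = M)
    {a : G} (ha : a ∈ sigmaA M U \ (sigmaCore M : Set G)) :
    ∃ c ∈ M,
      Subgroup.centralizer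
          ((Subgroup.zpowers (c * a ^ Nat.card (sigmaCore M) * c⁻¹) : Subgroup G) : Set G) ≤ M ∧
        ∀ L : Subgroup G, IsCoatom L →
          Subgroup.centralizer
            ((Subgroup.zpowers (c * a ^ Nat.card (sigmaCore M) * c⁻¹) : Subgroup G) : Set G) ≤ L →
          L = M := by
  obtain ⟨⟨⟨haM, y, hy, hy1, hay⟩, haT⟩, haS⟩ := ha
  obtain ⟨-, -, hUS, hT⟩ := isComplIn_T hKU
  obtain ⟨u, hu, s, hs, hau⟩ := hT a haT
  have hUM : U ≤ M := hKU.compl.1
  have hnorm : ∀ x ∈ sigmaCore M, u⁻¹ * x * u ∈ sigmaCore M := fun x hx => by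
    have h := conj_mem_S (M.inv_mem (hUM hu)) hx
    rwa [inv_inv] at h
  have hpow : ∀ k : ℕ, (u ^ k)⁻¹ * a ^ k ∈ sigmaCore M := fun k => by
    rw [hau]; exact pow_mul_mem hnorm hs k
  have hA : a ^ Nat.card (sigmaCore M) ≠ 1 := by
    intro h
    have h1 := hpow (Nat.card (sigmaCore M))
    rw [h, mul_one] at h1
    have h2 : u ^ Nat.card (sigmaCore M) ∈ sigmaCore M := by
      have h2' := (sigmaCore M).inv_mem h1
      rwa [inv_inv] at h2'
    have h3 : u ^ Nat.card (sigmaCore M) ∈ U ⊓ sigmaCore M := ⟨U.pow_mem hu _, h2⟩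
    rw [hUS, Subgroup.mem_bot] at h3
    have h4 : orderOf u ∣ Nat.card (sigmaCore M) := orderOf_dvd_of_pow_eq_one h3
    have h5 : orderOf u ∣ Nat.card U := Subgroup.orderOf_dvd_natCard U hu
    have h6 : orderOf u ∣ 1 := by
      have h6' := Nat.dvd_gcd h5 h4
      rwa [hcop.gcd_eq_one] at h6'
    have h7 : u = 1 := orderOf_eq_one_iff.mp (Nat.dvd_one.mp h6)
    apply haS
    rw [hau, h7, one_mul]
    exact hs
  have hB : (a ^ Nat.card (sigmaCore M)) ^ Nat.card U = 1 := by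
    have h1 := hpow (Nat.card U)
    have h2 : u ^ Nat.card U = 1 :=
      orderOf_dvd_iff_pow_eq_one.mp (Subgroup.orderOf_dvd_natCard U hu)
    rw [h2, inv_one, one_mul] at h1
    have h3 : (a ^ Nat.card U) ^ Nat.card (sigmaCore M) = 1 :=
      orderOf_dvd_iff_pow_eq_one.mp (Subgroup.orderOf_dvd_natCard (sigmaCore M) h1)
    rw [← pow_mul, mul_comm, pow_mul]
    exact h3
  have hX₀T : Subgroup.zpowers (a ^ Nat.card (sigmaCore M)) ≤ U ⊔ sigmaCore M := by
    rw [Subgroup.zpowers_le]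
    exact pow_mem haT _
  have hX₀card : (Nat.card (Subgroup.zpowers (a ^ Nat.card (sigmaCore M)))).Coprime
      (Nat.card (sigmaCore M)) := by
    rw [Nat.card_zpowers]
    exact Nat.Coprime.coprime_dvd_left (orderOf_dvd_of_pow_eq_one hB) hcop
  obtain ⟨c, hcT, hcU⟩ := hconj _ hX₀T hX₀card
  have hcM : c ∈ M := (sup_le hUM (sigmaCore_le M)) hcT
  refine ⟨c, hcM, ?_⟩
  have hmap : (Subgroup.zpowers (a ^ Nat.card (sigmaCore M))).map (MulAut.conj c).toMonoidHom
      = Subgroup.zpowers (c * a ^ Nat.card (sigmaCore M) * c⁻¹) := by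
    rw [MonoidHom.map_zpowers]; rfl
  rw [hmap] at hcU
  apply h1361 _ hcU
  · intro h
    rw [Subgroup.zpowers_eq_bot] at h
    apply hA
    have e : a ^ Nat.card (sigmaCore M)
        = c⁻¹ * (c * a ^ Nat.card (sigmaCore M) * c⁻¹) * c := by group
    rw [e, h]; group
  · intro h
    have hmem : c * y * c⁻¹ ∈ sigmaCore M ⊓ Subgroup.centralizer
        ((Subgroup.zpowers (c * a ^ Nat.card (sigmaCore M) * c⁻¹) : Subgroup G) : Set G) := by
      refine Subgroup.mem_inf.mpr ⟨conj_mem_S hcM hy, ?_⟩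
      rw [Subgroup.mem_centralizer_iff]
      intro z hz
      obtain ⟨k, rfl⟩ := Subgroup.mem_zpowers_iff.mp hz
      have hcomm : Commute (c * a ^ Nat.card (sigmaCore M) * c⁻¹) (c * y * c⁻¹) := by
        have h1 : Commute (a ^ Nat.card (sigmaCore M)) y :=
          (show Commute a y from hay).pow_left _
        show c * a ^ Nat.card (sigmaCore M) * c⁻¹ * (c * y * c⁻¹)
          = c * y * c⁻¹ * (c * a ^ Nat.card (sigmaCore M) * c⁻¹)
        calc c * a ^ Nat.card (sigmaCore M) * c⁻¹ * (c * y * c⁻¹)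
            = c * (a ^ Nat.card (sigmaCore M) * y) * c⁻¹ := by group
          _ = c * (y * a ^ Nat.card (sigmaCore M)) * c⁻¹ := by rw [h1.eq]
          _ = c * y * c⁻¹ * (c * a ^ Nat.card (sigmaCore M) * c⁻¹) := by group
      exact (hcomm.zpow_left k).eq
    rw [h, Subgroup.mem_bot] at hmem
    apply hy1
    have e : y = c⁻¹ * (c * y * c⁻¹) * c := by group
    rw [e, hmem]; group

/-- `A(M) \ M_σ` is a TI-subset. -/
theorem main [Finite G] (hsimple : IsSimpleGroup G) (hM : IsCoatom M)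
    (hKU : IsSigmaDecomposition M K U)
    (hcop : (Nat.card U).Coprime (Nat.card (sigmaCore M)))
    (hconj : ∀ X₀ : Subgroup G, X₀ ≤ U ⊔ sigmaCore M →
        (Nat.card X₀).Coprime (Nat.card (sigmaCore M)) →
        ∃ c ∈ U ⊔ sigmaCore M, X₀.map (MulAut.conj c).toMonoidHom ≤ U)
    (h1361 : ∀ X : Subgroup G, X ≤ U → X ≠ ⊥ →
        sigmaCore M ⊓ Subgroup.centralizer (X : Set G) ≠ ⊥ →
        Subgroup.centralizer (X : Set G) ≤ M ∧
          ∀ L : Subgroup G, IsCoatom L → Subgroup.centralizer (X : Set G) ≤ L → L = M) :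
    IsTISubset (sigmaA M U \ (sigmaCore M : Set G)) := by
  intro g hg a ha hb
  exfalso
  apply hg
  apply M_le_normalizer_X hKU
  obtain ⟨c, hcM, hc1, -⟩ := key hKU hcop hconj h1361 ha
  obtain ⟨d, hdM, -, hd2⟩ := key hKU hcop hconj h1361 hb
  obtain ⟨h, hh⟩ : ∃ h, h = d * g * c⁻¹ := ⟨_, rfl⟩
  have hx : d * (g * a * g⁻¹) ^ Nat.card (sigmaCore M) * d⁻¹
      = h * (c * a ^ Nat.card (sigmaCore M) * c⁻¹) * h⁻¹ := by
    rw [conj_pow, hh]; group
  rw [hx] at hd2
  have hcoatom : IsCoatom (M.map (MulAut.conj h).toMonoidHom) :=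
    ((MulEquiv.mapSubgroup (MulAut.conj h)).isCoatom_iff M).mpr hM
  have hle : Subgroup.centralizer
      ((Subgroup.zpowers (h * (c * a ^ Nat.card (sigmaCore M) * c⁻¹) * h⁻¹) : Subgroup G) : Set G)
      ≤ M.map (MulAut.conj h).toMonoidHom := by
    intro z hz
    rw [Subgroup.mem_centralizer_iff] at hz
    have hz1 : h * (c * a ^ Nat.card (sigmaCore M) * c⁻¹) * h⁻¹ * z
        = z * (h * (c * a ^ Nat.card (sigmaCore M) * c⁻¹) * h⁻¹) :=
      hz _ (Subgroup.mem_zpowers _)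
    have hz2 : h⁻¹ * z * h ∈ Subgroup.centralizer
        ((Subgroup.zpowers (c * a ^ Nat.card (sigmaCore M) * c⁻¹) : Subgroup G) : Set G) := by
      rw [Subgroup.mem_centralizer_iff]
      intro w hw
      obtain ⟨k, rfl⟩ := Subgroup.mem_zpowers_iff.mp hw
      have hcomm : Commute (c * a ^ Nat.card (sigmaCore M) * c⁻¹) (h⁻¹ * z * h) := by
        show c * a ^ Nat.card (sigmaCore M) * c⁻¹ * (h⁻¹ * z * h)
          = h⁻¹ * z * h * (c * a ^ Nat.card (sigmaCore M) * c⁻¹)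
        calc c * a ^ Nat.card (sigmaCore M) * c⁻¹ * (h⁻¹ * z * h)
            = h⁻¹ * (h * (c * a ^ Nat.card (sigmaCore M) * c⁻¹) * h⁻¹ * z) * h := by group
          _ = h⁻¹ * (z * (h * (c * a ^ Nat.card (sigmaCore M) * c⁻¹) * h⁻¹)) * h := by rw [hz1]
          _ = h⁻¹ * z * h * (c * a ^ Nat.card (sigmaCore M) * c⁻¹) := by group
      exact (hcomm.zpow_left k).eq
    refine ⟨h⁻¹ * z * h, hc1 hz2, ?_⟩
    show h * (h⁻¹ * z * h) * h⁻¹ = z
    group
  have hMeq : M.map (MulAut.conj h).toMonoidHom = M := hd2 _ hcoatom hle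
  have hhN : h ∈ Subgroup.normalizer (M : Set G) :=
    Subgroup.mem_normalizer_iff_map_conj_eq.mpr hMeq
  have hNM : Subgroup.normalizer (M : Set G) = M := by
    rcases eq_or_lt_of_le (Subgroup.le_normalizer : M ≤ Subgroup.normalizer (M : Set G))
      with h0 | h0
    · exact h0.symm
    · exfalso
      have htop := hM.2 _ h0
      have hnormal : M.Normal := Subgroup.normalizer_eq_top_iff.mp htop
      rcases hsimple.eq_bot_or_eq_top_of_normal M hnormal with h1 | h1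
      · obtain ⟨⟨⟨haM, -⟩, -⟩, haS⟩ := ha
        rw [h1, Subgroup.mem_bot] at haM
        exact haS (haM ▸ (sigmaCore M).one_mem)
      · exact hM.1 h1
  have hhM : h ∈ M := hNM ▸ hhN
  have hg' : g = d⁻¹ * h * c := by rw [hh]; group
  rw [hg']
  exact M.mul_mem (M.mul_mem (M.inv_mem hdM) hhM) hcM

end Decomp

end Cfsg.Agent.Lib.Helper69.SigTI
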