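import Mathlib
import Cfsg.Agent.Lib.Helper52.SpStmt
import Cfsg.Agent.Lib.Helper69.SpRQB

set_option autoImplicit false

/-! Piece [R2B] of S5171: `R2` is a normal subgroup of `PU`. -/

namespace Cfsg.Agent.Lib.Helper69.SpR2B

open Matrix Cfsg.Agent.Lib.Helper43.SpBasic Cfsg.Agent.Lib.Helper43.SpSylow
open Cfsg.Agent.Lib.Helper52.SpStmt Cfsg.Agent.Lib.Helper69.SpRQB

universe u

theorem main : R2Basic.{u} := by
  intro m F _ _
  constructor
  · exact Subgroup.map_mono R2S_le_U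
  · rintro s ⟨u, hu, rfl⟩ r ⟨x, hx, rfl⟩
    refine ⟨u * x * u⁻¹, conj_mem_R2S hu hx, ?_⟩
    rw [map_mul, map_mul, map_inv]

end Cfsg.Agent.Lib.Helper69.SpR2B
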