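import Mathlib
import Cfsg.Agent.Lib.Helper14.TC3Stmt
import Cfsg.Agent.Lib.Helper3.TDFrob

/-!
# S4460 piece B2H (call of helper14)

`N = L ⋊ P`, `E = ⁅L, P⁆` abelian: every irreducible character of `E P` has degree `1` or `d`,
where `d` is the common `p`-part of the nonlinear degrees of `N`.
-/

set_option autoImplicit false

namespace Cfsg.Agent.Lib.Helper69.TC3B2H

open Cfsg Cfsg.Agent.Lib.Helper80.Integrality Cfsg.Agent.Lib.Helper80.Restrict
open Cfsg.Agent.Lib.CT.Wedderburn Cfsg.Agent.Lib.CT.Orth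
open Cfsg.Agent.Lib.CT.FrobRec Cfsg.Agent.Lib.CT.IndChar
open Cfsg.Agent.Lib.CT.Clifford Cfsg.Agent.Lib.CT.LinChar
open Cfsg.Agent.Lib.Helper3.TDBasic
open Cfsg.Agent.Lib.Helper14
open scoped ComplexConjugate
open scoped commutatorElement

universe u

/-- The degree of an irreducible character divides the index of an abelian normal subgroup
(weak Ito). -/
theorem degree_dvd_index_of_abelian_normal {X : Type u} [Group X] [Finite X] (A : Subgroup X)
    [hA : A.Normal] (hab : ∀ a b : A, a * b = b * a) (η : IrrCharacter X) :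
    charDegree (η : X → ℂ) ∣ A.index := by
  classical
  have := Fintype.ofFinite X
  have : Fintype A := Fintype.ofFinite A
  have hresc : IsCharacter A (fun k : A => (η : X → ℂ) k) :=
    Cfsg.Agent.Lib.CT.Ops.isCharacter_restrict A (isCharacter_of_irr η.2)
  have := finite_irrCharacter A
  have := Fintype.ofFinite (IrrCharacter A)
  obtain ⟨mm, hmm1, hmm2, hmm3, -⟩ := exists_mult hresc
  have hdegres : charDegree (fun k : A => (η : X → ℂ) k) = charDegree (η : X → ℂ) := rfl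
  obtain ⟨θ, hθ⟩ : ∃ θ : IrrCharacter A, mm θ ≠ 0 := by
    by_contra h
    push Not at h
    have h0 : charDegree (η : X → ℂ) = 0 := by
      rw [← hdegres, hmm3]
      simp [h]
    exact (charDegree_pos η).ne' h0
  have hconθ : classInner (fun k : A => (η : X → ℂ) k) (θ : A → ℂ) ≠ 0 := by
    rw [hmm1 θ]
    exact_mod_cast hθ
  obtain ⟨hdd1, hdd2⟩ := deg_of_constituent A θ η hconθ
  have hθ1 : (θ : A → ℂ) 1 = 1 :=
    Cfsg.Agent.Lib.Helper3.MGroup.apply_one_eq_one_of_comm θ.2 (fun a b => by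
      rw [commutatorElement_eq_one_iff_mul_comm.2 (hab a b)])
  have hθd : charDegree (θ : A → ℂ) = 1 :=
    Cfsg.Agent.Lib.Helper3.TDFrob.charDegree_of_apply_one hθ1
  rw [hθd, Nat.div_one] at hdd2
  exact hdd2

theorem conj_mem_of_sup {G : Type*} [Group G] (A L P : Subgroup G)
    (hL : ∀ g ∈ L, ∀ y ∈ A, g * y * g⁻¹ ∈ A) (hP : ∀ g ∈ P, ∀ y ∈ A, g * y * g⁻¹ ∈ A) :
    ∀ g ∈ L ⊔ P, ∀ y ∈ A, g * y * g⁻¹ ∈ A := by
  have hnorm : ∀ g, (g ∈ L ∨ g ∈ P) → g ∈ Subgroup.normalizer (A : Set G) := by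
    intro g hg
    rw [Subgroup.mem_normalizer_iff]
    intro h
    constructor
    · rcases hg with hg | hg
      · exact hL g hg h
      · exact hP g hg h
    · intro hh
      have h1 : g⁻¹ * (g * h * g⁻¹) * g⁻¹⁻¹ ∈ A := by
        rcases hg with hg | hg
        · exact hL g⁻¹ (L.inv_mem hg) _ hh
        · exact hP g⁻¹ (P.inv_mem hg) _ hh
      simpa [mul_assoc] using h1
  intro g hg y hy
  have h1 : g ∈ Subgroup.normalizer (A : Set G) :=
    (sup_le (fun g hg => hnorm g (Or.inl hg)) (fun g hg => hnorm g (Or.inr hg)) :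
      L ⊔ P ≤ Subgroup.normalizer (A : Set G)) hg
  exact (Subgroup.mem_normalizer_iff.mp h1 y).mp hy

theorem card_mul_relIndex' {G : Type*} [Group G] {A B : Subgroup G} (h : A ≤ B) :
    Nat.card A * A.relIndex B = Nat.card B := by
  rw [Subgroup.relIndex, ← Nat.card_congr (Subgroup.subgroupOfEquivOfLe h).toEquiv]
  exact Subgroup.card_mul_index _

theorem main : TC3Stmt.B2H.{u} := by
  intro G _ _ N L P p d hNn hp hS hEE hψd
  obtain ⟨hLn, hLN, hPN, hLcop, hPp, hLP, hLPbot, k, hk⟩ := hS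
  classical
  have := hLn
  have hEL : ⁅L, P⁆ ≤ L := Subgroup.commutator_le_left L P
  have hEN : ⁅L, P⁆ ≤ N := hEL.trans hLN
  have hYN : ⁅L, P⁆ ⊔ P ≤ N := sup_le hEN hPN
  -- `E` is normalized by `L` and by `P`
  have hEconjP : ∀ g ∈ P, ∀ y ∈ ⁅L, P⁆, g * y * g⁻¹ ∈ ⁅L, P⁆ := by
    intro g hg
    have h1 : ⁅L, P⁆ ≤ (⁅L, P⁆).comap (MulAut.conj g).toMonoidHom := by
      rw [Subgroup.commutator_le]
      intro l hl x hx
      rw [Subgroup.mem_comap]
      have e : (MulAut.conj g).toMonoidHom ⁅l, x⁆ = ⁅g * l * g⁻¹, g * x * g⁻¹⁆ := by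
        simp only [commutatorElement_def, MulEquiv.toMonoidHom_eq_coe, MonoidHom.coe_coe,
          MulAut.conj_apply]
        group
      rw [e]
      exact Subgroup.commutator_mem_commutator (hLn.conj_mem l hl g)
        (P.mul_mem (P.mul_mem hg hx) (P.inv_mem hg))
    intro y hy
    have h2 := h1 hy
    simpa [Subgroup.mem_comap, MulAut.conj_apply] using h2
  have hEconjL : ∀ g ∈ L, ∀ y ∈ ⁅L, P⁆, g * y * g⁻¹ ∈ ⁅L, P⁆ := by
    intro g hg
    have h1 : ⁅L, P⁆ ≤ (⁅L, P⁆).comap (MulAut.conj g).toMonoidHom := by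
      rw [Subgroup.commutator_le]
      intro l hl x hx
      rw [Subgroup.mem_comap]
      have e : (MulAut.conj g).toMonoidHom ⁅l, x⁆ = ⁅g * l, x⁆ * ⁅g, x⁆⁻¹ := by
        simp only [commutatorElement_def, MulEquiv.toMonoidHom_eq_coe, MonoidHom.coe_coe,
          MulAut.conj_apply]
        group
      rw [e]
      exact Subgroup.mul_mem _ (Subgroup.commutator_mem_commutator (L.mul_mem hg hl) hx)
        (Subgroup.inv_mem _ (Subgroup.commutator_mem_commutator hg hx))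
    intro y hy
    have h2 := h1 hy
    simpa [Subgroup.mem_comap, MulAut.conj_apply] using h2
  have hEconjN : ∀ g ∈ N, ∀ y ∈ ⁅L, P⁆, g * y * g⁻¹ ∈ ⁅L, P⁆ := by
    rw [← hLP]
    exact conj_mem_of_sup _ L P hEconjL hEconjP
  -- `Y = E ⊔ P` is normalized by `L` and by `P`
  have hYconj : ∀ g, (g ∈ L ∨ g ∈ P) → ∀ y ∈ ⁅L, P⁆ ⊔ P, g * y * g⁻¹ ∈ ⁅L, P⁆ ⊔ P := by
    intro g hg
    have h1 : ⁅L, P⁆ ⊔ P ≤ (⁅L, P⁆ ⊔ P).comap (MulAut.conj g).toMonoidHom := by
      refine sup_le ?_ ?_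
      · intro y hy
        rw [Subgroup.mem_comap]
        have h1 : g * y * g⁻¹ ∈ ⁅L, P⁆ := by
          rcases hg with hg | hg
          · exact hEconjL g hg y hy
          · exact hEconjP g hg y hy
        simpa [MulAut.conj_apply] using
          (Subgroup.mem_sup_left h1 : g * y * g⁻¹ ∈ ⁅L, P⁆ ⊔ P)
      · intro x hx
        rw [Subgroup.mem_comap]
        have h1 : g * x * g⁻¹ ∈ ⁅L, P⁆ ⊔ P := by
          rcases hg with hg | hg
          · have e : g * x * g⁻¹ = ⁅g, x⁆ * x := by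
              rw [commutatorElement_def]
              group
            rw [e]
            exact Subgroup.mul_mem _
              (Subgroup.mem_sup_left (Subgroup.commutator_mem_commutator hg hx))
              (Subgroup.mem_sup_right hx)
          · exact Subgroup.mem_sup_right (P.mul_mem (P.mul_mem hg hx) (P.inv_mem hg))
        simpa [MulAut.conj_apply] using h1
    intro y hy
    have h2 := h1 hy
    simpa [Subgroup.mem_comap, MulAut.conj_apply] using h2
  have hYconjN : ∀ g ∈ N, ∀ y ∈ ⁅L, P⁆ ⊔ P, g * y * g⁻¹ ∈ ⁅L, P⁆ ⊔ P := by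
    rw [← hLP]
    exact conj_mem_of_sup _ L P (fun g hg => hYconj g (Or.inl hg)) (fun g hg => hYconj g (Or.inr hg))
  have hH'n : ((⁅L, P⁆ ⊔ P).subgroupOf N).Normal :=
    (Subgroup.normal_subgroupOf_iff hYN).mpr (fun h k hh hk => hYconjN k hk h hh)
  have hAn : ((⁅L, P⁆).subgroupOf (⁅L, P⁆ ⊔ P)).Normal :=
    (Subgroup.normal_subgroupOf_iff le_sup_left).mpr (fun h k hh hk => hEconjN k (hYN hk) h hh)
  -- cardinalities
  have hcardP : Nat.card P = p ^ k := by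
    rw [← hk, ← hLP, Subgroup.relIndex_sup_left, ← Subgroup.inf_relIndex_right, hLPbot,
      Subgroup.relIndex_bot_left]
  have hPrel : P.relIndex N = Nat.card L := by
    have h1 := card_mul_relIndex' hLN
    have h2 := card_mul_relIndex' hPN
    rw [hk] at h1
    rw [hcardP, ← h1, mul_comm] at h2
    exact Nat.eq_of_mul_eq_mul_right (pow_pos hp.pos k) h2
  have hYrel : ¬ p ∣ (⁅L, P⁆ ⊔ P).relIndex N := by
    intro h
    have h1 : (⁅L, P⁆ ⊔ P).relIndex N ∣ P.relIndex N :=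
      Subgroup.relIndex_dvd_of_le_left N le_sup_right
    rw [hPrel] at h1
    have h2 : p ∣ Nat.card L := dvd_trans h h1
    have h3 := Nat.Coprime.eq_one_of_dvd hLcop.symm h2
    exact hp.one_lt.ne' h3
  -- `E` abelian
  have habG : ∀ a ∈ ⁅L, P⁆, ∀ b ∈ ⁅L, P⁆, a * b = b * a := by
    intro a ha b hb
    have h1 : ⁅a, b⁆ ∈ ⁅⁅L, P⁆, ⁅L, P⁆⁆ := Subgroup.commutator_mem_commutator ha hb
    rw [hEE, Subgroup.mem_bot] at h1
    exact commutatorElement_eq_one_iff_mul_comm.mp h1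
  have hab : ∀ a b : ↥((⁅L, P⁆).subgroupOf (⁅L, P⁆ ⊔ P)), a * b = b * a := by
    intro a b
    apply Subtype.ext
    apply Subtype.ext
    exact habG _ (Subgroup.mem_subgroupOf.mp a.2) _ (Subgroup.mem_subgroupOf.mp b.2)
  -- index of `E` in `Y`
  have hAidx : ((⁅L, P⁆).subgroupOf (⁅L, P⁆ ⊔ P)).index ∣ p ^ k := by
    have h1 : (⁅L, P⁆).subgroupOf (⁅L, P⁆ ⊔ P) ⊔ P.subgroupOf (⁅L, P⁆ ⊔ P) = ⊤ := by
      rw [← Subgroup.subgroupOf_sup le_sup_left le_sup_right, Subgroup.subgroupOf_self]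
    rw [← Subgroup.relIndex_top_right, ← h1, Subgroup.relIndex_sup_left]
    have h2 := Subgroup.relIndex_dvd_card ((⁅L, P⁆).subgroupOf (⁅L, P⁆ ⊔ P))
      (P.subgroupOf (⁅L, P⁆ ⊔ P))
    rw [Nat.card_congr (Subgroup.subgroupOfEquivOfLe (le_sup_right : P ≤ ⁅L, P⁆ ⊔ P)).toEquiv,
      hcardP] at h2
    exact h2
  intro η
  have hη1 : charDegree (η : ↥(⁅L, P⁆ ⊔ P) → ℂ) ∣ p ^ k :=
    dvd_trans (degree_dvd_index_of_abelian_normal _ hab η) hAidx
  obtain ⟨i, -, hi⟩ := (Nat.dvd_prime_pow hp).1 hη1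
  -- transport to `N`
  have : Fintype ↥((⁅L, P⁆ ⊔ P).subgroupOf N) := Fintype.ofFinite _
  let e : ↥((⁅L, P⁆ ⊔ P).subgroupOf N) ≃* ↥(⁅L, P⁆ ⊔ P) := Subgroup.subgroupOfEquivOfLe hYN
  let η' : IrrCharacter ↥((⁅L, P⁆ ⊔ P).subgroupOf N) :=
    ⟨fun x => (η : ↥(⁅L, P⁆ ⊔ P) → ℂ) (e x), Cfsg.Agent.Lib.CT.Ops.isIrrCharacter_comp_mulEquiv e η.2⟩
  have hη'd : charDegree (η' : ↥((⁅L, P⁆ ⊔ P).subgroupOf N) → ℂ)
      = charDegree (η : ↥(⁅L, P⁆ ⊔ P) → ℂ) := by
    show charDegree (fun x => (η : ↥(⁅L, P⁆ ⊔ P) → ℂ) (e x)) = _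
    simp [charDegree]
  obtain ⟨ψ, -, hd1, hd2⟩ := exists_over ((⁅L, P⁆ ⊔ P).subgroupOf N) η'
  rw [hη'd, hi] at hd1 hd2
  have hidx : ((⁅L, P⁆ ⊔ P).subgroupOf N).index = (⁅L, P⁆ ⊔ P).relIndex N := rfl
  rw [hidx] at hd2
  have hψpos := charDegree_pos ψ
  rw [hi]
  rcases hψd ψ with h | h
  · left
    rw [h] at hd1
    exact Nat.dvd_one.mp hd1
  · right
    rw [← h]
    obtain ⟨q, hq⟩ := hd1
    have hq0 : q ≠ 0 := by
      rintro rfl
      rw [mul_zero] at hq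
      omega
    have hqdiv : charDegree (ψ : ↥N → ℂ) / p ^ i = q := by
      rw [hq, Nat.mul_div_cancel_left _ (pow_pos hp.pos i)]
    rw [hqdiv] at hd2
    have hpq : ¬ p ∣ q := fun hpq => hYrel (dvd_trans hpq hd2)
    have hfac : (charDegree (ψ : ↥N → ℂ)).factorization p = i := by
      rw [hq, Nat.factorization_mul (pow_pos hp.pos i).ne' hq0, Nat.Prime.factorization_pow hp,
        Finsupp.add_apply, Finsupp.single_eq_same, Nat.factorization_eq_zero_of_not_dvd hpq,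
        add_zero]
    rw [hfac]

end Cfsg.Agent.Lib.Helper69.TC3B2H
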