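import Mathlib
import Cfsg.Agent.Lib.Helper41.TMStmt

/-!
# S5987 piece TSEX (helper69), minus form

Totally singular `m`-spaces exist for `m ≤ d - 1`: the span of `Pi.single (inl (inl a)) 1`,
`a < m`.  Port of helper47's S5973 piece `TPTSEX`.
-/

set_option autoImplicit false

namespace Cfsg.Agent.Lib.Helper69.TMTSEX

open Cfsg.Agent.Lib.Helper45.OMiStmt (M)
open Cfsg.Agent.Lib.Helper41.TMTwoStmt (TSubM)

universe u

theorem exists_ts {F : Type u} [Field F] (a₀ b₀ : F) (d m : ℕ) (hm : m + 1 ≤ d) :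
    ∃ W : Submodule F (M d → F), Module.finrank F ↥W = m ∧ TSubM d F a₀ b₀ W := by
  classical
  have hm' : m ≤ d - 1 := by omega
  obtain ⟨s, hs1, hs2⟩ : ∃ s : Fin m → M d, Function.Injective s ∧
      ∀ a, ∃ c, s a = Sum.inl (Sum.inl c) :=
    ⟨fun a => Sum.inl (Sum.inl (Fin.castLE hm' a)),
      fun a b h => Fin.castLE_injective hm' (Sum.inl_injective (Sum.inl_injective h)),
      fun a => ⟨_, rfl⟩⟩
  have hli : LinearIndependent F (fun a : Fin m => Pi.basisFun F (M d) (s a)) :=
    (Pi.basisFun F (M d)).linearIndependent.comp s hs1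
  refine ⟨Submodule.span F (Set.range (fun a : Fin m => Pi.basisFun F (M d) (s a))), ?_, ?_⟩
  · rw [finrank_span_eq_card hli, Fintype.card_fin]
  · intro w hw
    have hzero : ∀ i : Fin (d - 1), w (Sum.inl (Sum.inr i)) = 0 := by
      intro i
      refine Submodule.span_induction (p := fun v _ => v (Sum.inl (Sum.inr i)) = 0) ?_ ?_ ?_ ?_ hw
      · rintro _ ⟨a, rfl⟩
        obtain ⟨c, hc⟩ := hs2 a
        simp [hc]
      · simp
      · intro x y _ _ hx hy
        simp [hx, hy]
      · intro c x _ hx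
        simp [hx]
    have hzero2 : ∀ j : Fin 2, w (Sum.inr j) = 0 := by
      intro j
      refine Submodule.span_induction (p := fun v _ => v (Sum.inr j) = 0) ?_ ?_ ?_ ?_ hw
      · rintro _ ⟨a, rfl⟩
        obtain ⟨c, hc⟩ := hs2 a
        simp [hc]
      · simp
      · intro x y _ _ hx hy
        simp [hx, hy]
      · intro c x _ hx
        simp [hx]
    unfold Cfsg.quadFormMinus
    rw [hzero2 0, hzero2 1]
    have h1 : ∑ i : Fin (d - 1), w (Sum.inl (Sum.inl i)) * w (Sum.inl (Sum.inr i)) = 0 := by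
      apply Finset.sum_eq_zero
      intro i _
      rw [hzero i, mul_zero]
    rw [h1]
    ring

theorem main : Cfsg.Agent.Lib.Helper41.TMStmt.TsEx.{u} := by
  intro F _ _ a₀ b₀ _ d m hm
  exact exists_ts a₀ b₀ d m hm

end Cfsg.Agent.Lib.Helper69.TMTSEX
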